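import Mathlib
import Cfsg.Agent.Lib.A6S.Defs

/-! Standard subgroups of type `A₆`: the twisted case, frames. -/

set_option autoImplicit false

namespace H25.A6

open Subgroup H69 H36.SW

variable {G : Type*} [Group G]

namespace Fr
variable (F : Fr G)

/-- the class of `z` -/
def Zc (s : G) : Prop := ∃ g, g * F.z * g⁻¹ = s

/-- the two translations -/
structure TA (a b : G) : Prop where
  ca : F.CA
  nx1 : ¬ F.XT
  nx2 : ¬ F.sw.XT
  aa : a * a = 1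
  bb : b * b = 1
  az : a * F.z = F.z * a
  av : a * F.v1 = F.v1 * a
  au : a * F.u1 = F.u1 * a
  bz : b * F.z = F.z * b
  bv : b * F.v2 = F.v2 * b
  bu : b * F.u2 = F.u2 * b
  at' : a * F.t * a = F.t * F.u1
  bt : b * F.t * b = F.t * F.u2
  av2 : a * F.v2 * a = F.v2 * F.u1
  bv1 : b * F.v1 * b = F.v1 * F.u2
  isP : IsPGroup 2 (closure ({F.t, F.v1, F.v2, F.u1, F.u2, a, b} : Set G))

theorem TA.sw {F : Fr G} {a b : G} (h : F.TA a b) : F.sw.TA b a :=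
  ⟨h.ca.sw, h.nx2, h.nx1, h.bb, h.aa, h.bz, h.bv, h.bu, h.az, h.av, h.au, h.bt, h.at', h.bv1, h.av2, by
    have := h.isP
    rwa [Set.insert_comm F.v1, Set.insert_comm F.u1, Set.pair_comm a] at this⟩

/-- the Sylow 2-subgroup of the group of transvections of `X1` with centre `u1` -/
structure TQ (a b : G) (Q : Subgroup G) (η : G) : Prop extends F.TA a b where
  Q2 : IsPGroup 2 Q
  QN : Q ≤ 𝐍(F.W1)
  WQ : F.W1 ≤ Q
  aQ : a ∈ Q
  pQ : b * F.v2 ∈ Q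
  ηQ : η ∈ 𝐍(Q)
  vQ : F.v2 ∈ 𝐍(Q)
  hη : ∀ w ∈ F.W1, η * w * η⁻¹ = F.y1 * w * F.y1⁻¹
  η3 : η * η * η ∈ 𝐂(Q)
  ηv : η * F.v2 * (η * F.v2) ∈ 𝐂(Q)

/-- the involution `p = (b v2) ^ η` -/
structure TP (a b p um η : G) : Prop extends F.TA a b where
  ab : a * b * a * b = F.z
  hm : um = 1 ∨ um = F.u1
  pp : p * p = 1
  pt : p * F.t * p = F.t * F.v1 * F.u1
  pv1 : p * F.v1 * p = F.v1
  pv2 : p * F.v2 * p = b * um
  pa : p * a * p = a * F.v1 * F.u1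
  pb : p * b * p = F.v2 * um
  pu : p * F.u1 * p = F.u1
  pz : p * F.z * p = F.z * F.u1
  hη : ∀ w ∈ F.W1, η * w * η⁻¹ = F.y1 * w * F.y1⁻¹
  ηa : η * a = a * η
  ηp : η * (b * F.v2) * η⁻¹ = p
  ηq : η * p * η⁻¹ = b * F.v2 * p * um

/-- the group of order 128 -/
def U0 (a b : G) : Subgroup G := closure {F.t, F.v1, F.v2, a, b, F.u1, F.z}
/-- its subgroup of order 64 -/
def U00 (a b : G) : Subgroup G := closure {F.v1, F.v2, a, b, F.u1, F.z}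

/-- both sides -/
structure TB (a b p q um um' η η' : G) : Prop where
  h1 : F.TP a b p um η
  h2 : F.sw.TP b a q um' η'

/-- `dl ≠ 1`: the involution `π` acts on `U0` as `p q p`, `q = p ^ dl` -/
structure TS (a b p um η π : G) : Prop extends F.TP a b p um η where
  d1 : F.dl ≠ 1
  db : F.dl * a * F.dl⁻¹ = b
  da : F.dl * b * F.dl⁻¹ = a ∨ F.dl * b * F.dl⁻¹ = a * F.u1
  ππ : π * π = 1
  πU : ∀ x ∈ F.U0 a b, π * x * π =
    p * (F.dl * p * F.dl⁻¹) * p * x * (p * (F.dl * p * F.dl⁻¹) * p)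
  πc : ∃ g, g * π * g⁻¹ = p
  hc : (F.dl * F.dl = 1 ∧ um = 1 ∧ F.dl * π * F.dl⁻¹ * π = F.t * F.v1 * F.v2 * a * b) ∨
    (F.dl * F.dl = 1 ∧ um = F.u1 ∧ F.dl * π * F.dl⁻¹ * π = 1) ∨
    (F.dl * F.dl = F.t ∧ um = 1 ∧ F.dl * π * F.dl⁻¹ * π = F.t * F.v1 * F.v2 * b * F.z) ∨
    (F.dl * F.dl = F.t ∧ um = F.u1 ∧ F.dl * π * F.dl⁻¹ * π = a)

/-- the group of order 512 -/
def SS (a b π : G) : Subgroup G := closure {F.dl, π, F.t, F.v1, F.v2, a, b, F.u1, F.z}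

theorem eqns_T : True := by
  have := @Zc.eq_1.{0}
  have := @U0.eq_1.{0}
  have := @U00.eq_1.{0}
  have := @SS.eq_1.{0}
  trivial

end Fr

end H25.A6
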