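import Mathlib
import Cfsg.Agent.Lib.A6T.Defs
import Cfsg.Agent.Lib.A6T.Tab
import Cfsg.Agent.Lib.A6S.Bas2

/-! The codes of the twisted case. -/

set_option autoImplicit false
set_option maxRecDepth 100000
set_option linter.unusedSectionVars false

namespace H25.A6

open Subgroup H69 H36.SW H80.PC

variable {G : Type*} [Group G] [Finite G]

theorem ic {x y : G} (h : x * y = y * x) : x⁻¹ * y * x = y := by rw [mul_assoc, ← h, inv_mul_cancel_left]
theorem ii {x y w : G} (h : x * x = 1) (e : x * y * x = w) : x⁻¹ * y * x = w := by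
  rw [inv_eq_of_mul_eq_one_left h, e]
theorem ii' {x y w : G} (h : x * x = 1) (e : x * y * x = w) : x * y * x⁻¹ = w := by
  rw [inv_eq_of_mul_eq_one_left h, e]
theorem sw2 {x y w : G} (hx : x * x = 1) (hy : y * y = 1) (e : x * y * x = y * w) (c : y * w = w * y)
    (c' : x * w = w * x) : y * x * y = x * w := by
  calc y * x * y = y * (x * y * x) * x := by rw [mul_assoc y (x * y * x), mul_assoc (x * y), hx, mul_one, mul_assoc]
    _ = x * w := by rw [e, ← mul_assoc, hy, one_mul, c']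

namespace Fr
variable {F : Fr G} {a b p q um um' η η' π : G}

/-- the generators of `U0` -/
def LU (F : Fr G) (a b : G) : List G := [F.t, F.v1, F.v2, a, b, F.u1, F.z]
/-- the generators of `S` -/
def LS (F : Fr G) (a b π : G) : List G := F.dl :: π :: F.LU a b

/-- a second involution -/
structure TW (F : Fr G) (a b p q um η : G) : Prop extends F.TP a b p um η where
  hq : ∃ e m, List.Forall₂ (fun y c => q * y * q⁻¹ = ev (F.LU a b) c) (F.LU a b) (imQ e m)

theorem u2e (F : Fr G) : F.u2 = F.u1 * F.z := by rw [F.u2_eq F.hu1, F.zu1]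

theorem TA.bu1 (h : F.TA a b) : b * F.u1 = F.u1 * b := by
  have := Commute.mul_right (show Commute b F.z from h.bz) (show Commute b F.u2 from h.bu)
  rwa [F.u2_eq F.hu1, ← mul_assoc, F.zz, one_mul] at this

theorem TP.okU (h : F.TP a b p um η) : Ok (F.LU a b) PU := by
  have uz := F.zu1.symm
  have zv2 := F.B1zv2
  have au2 : a * F.u2 = F.u2 * a := h.toTA.sw.bu1
  have o6 : Ok [F.z] PU6 := (show Ok ([] : List G) [] from trivial).cons (im := []) rfl F.zz .nil (by decide +kernel)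
  have o5 : Ok [F.u1, F.z] PU5 := o6.cons (im := [1]) rfl (by simpa [ev] using F.u11)
    (by simpa [ev] using ic uz) (by decide +kernel)
  have o4 : Ok [b, F.u1, F.z] PU4 := o5.cons (im := [1, 2]) rfl (by simpa [ev] using h.bb)
    (by simpa [ev] using ⟨ic h.bu1, ic h.bz⟩) (by decide +kernel)
  have o3 : Ok [a, b, F.u1, F.z] PU3 := o4.cons (im := [5, 2, 4]) rfl (by simpa [ev] using h.aa)
    (by
      have : a * b * a = b * F.z := by
        rw [h.bz, ← h.ab, mul_assoc _ b b, h.bb, mul_one]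
      simpa [ev] using ⟨ii h.aa this, ic h.au, ic h.az⟩) (by decide +kernel)
  have o2 : Ok [F.v2, a, b, F.u1, F.z] PU2 := o3.cons (im := [5, 2, 4, 8]) rfl (by simpa [ev] using F.v22)
    (by simpa [ev] using ⟨ii F.v22 (sw2 h.aa F.v22 h.av2 F.u1v2.symm h.au), ic h.bv.symm, ic F.u1v2.symm,
      ic zv2.symm⟩) (by decide +kernel)
  have o1 : Ok [F.v1, F.v2, a, b, F.u1, F.z] PU1 := o2.cons (im := [17, 2, 28, 8, 16]) rfl
    (by simpa [ev] using F.v11)
    (by simpa [ev] using ⟨ii F.v11 (F.v121.trans zv2), ic h.av.symm,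
      F.u2e ▸ ii F.v11 (sw2 h.bb F.v11 h.bv1 F.u2v1.symm h.bu), ic F.u1v1.symm, ic F.zv1.symm⟩) (by decide +kernel)
  exact o1.cons (im := [1, 2, 20, 56, 16, 32]) rfl (by simpa [ev] using F.tt)
    (by simpa [ev] using ⟨ic F.tv1, ic F.tv2, ii F.tt (sw2 h.aa F.tt h.at' F.tu1 h.au),
      F.u2e ▸ ii F.tt (sw2 h.bb F.tt h.bt F.tu2 h.bu), ic F.tu1, ic F.zt.symm⟩) (by decide +kernel)

theorem nzF (F : Fr G) : F.u1 ≠ 1 ∧ F.z ≠ 1 ∧ F.u1 * F.z ≠ 1 := ⟨F.hu1, F.z1, F.u2e ▸ F.u2_ne F.hu1⟩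

theorem TP.kerU (h : F.TP a b p um η) : Ker (F.LU a b) :=
  h.okU.ker (gs := [1, 2, 4, 8, 16]) (zs := [32, 64, 96]) (by simpa [LU, ev] using F.nzF) (n := 1) (k := 128) rfl
    (by decide +kernel)

theorem U0_eq (F : Fr G) (a b : G) : F.U0 a b = closure {x | x ∈ F.LU a b} := by
  unfold U0 LU; congr 1; ext x; simp

theorem SS_eq (F : Fr G) (a b π : G) : F.SS a b π = closure {x | x ∈ F.LS a b π} := by
  unfold SS LS LU; congr 1; ext x; simp

theorem TP.memU (h : F.TP a b p um η) {x : G} : x ∈ F.U0 a b ↔ ∃ c < 128, x = ev (F.LU a b) c :=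
  F.U0_eq a b ▸ h.okU.mem

theorem TP.injU (h : F.TP a b p um η) {c d : ℕ} (hc : c < 128) (hd : d < 128)
    (e : ev (F.LU a b) c = ev (F.LU a b) d) : c = d := h.okU.inj h.kerU hc hd e

theorem TP.cardU (h : F.TP a b p um η) : Nat.card (F.U0 a b) = 128 := F.U0_eq a b ▸ h.okU.card h.kerU

theorem evU (F : Fr G) (a b : G) (c : ℕ) : ev (F.LU a b) c ∈ F.U0 a b :=
  F.U0_eq a b ▸ ev_mem (fun _ hx => subset_closure hx) c

theorem TP.mem00 (h : F.TP a b p um η) {x : G} : x ∈ F.U00 a b ↔ ∃ c < 64, x = ev (F.LU a b) (2 * c) := by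
  have e : F.U00 a b = closure {x | x ∈ [F.v1, F.v2, a, b, F.u1, F.z]} := by
    unfold U00; congr 1; ext x; simp
  rw [e, h.okU.1.mem]
  simp only [LU, ev_bit0]
  rfl

theorem TP.exm (h : F.TP a b p um η) : ∃ m : Bool, um = cond m F.u1 1 :=
  h.hm.elim (fun e => ⟨false, e⟩) fun e => ⟨true, e⟩

theorem TP.imp (h : F.TP a b p um η) {m : Bool} (hm : um = cond m F.u1 1) :
    List.Forall₂ (fun y c => p * y * p⁻¹ = ev (F.LU a b) c) (F.LU a b) (imP m) := by
  have h1 := h.pt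
  have h2 := h.pv2
  have h3 := h.pa
  have h4 := h.pb
  have h5 := h.pz
  rw [h.av, mul_assoc F.v1] at h3
  rw [mul_assoc F.t] at h1
  rw [F.zu1] at h5
  subst hm
  cases m <;> simpa [LU, imP, ev] using ⟨ii' h.pp h1, ii' h.pp h.pv1, by simpa using ii' h.pp h2, ii' h.pp h3,
    by simpa using ii' h.pp h4, ii' h.pp h.pu, ii' h.pp h5⟩

theorem TP.actp (h : F.TP a b p um η) {m : Bool} (hm : um = cond m F.u1 1) (c : ℕ) :
    p * ev (F.LU a b) c * p⁻¹ = ev (F.LU a b) (act PU (imP m) c) := h.okU.conj (h.imp hm) c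

theorem TP.okT (h : F.TP a b p um η) {m : Bool} (hm : um = cond m F.u1 1) : Ok (p :: F.LU a b) (H80.PC.PT m) :=
  h.okU.cons (im := imP m) (k := 128) rfl (h.pp.trans (ev_zero _).symm)
    ((h.imp hm).imp fun _ _ e => by rwa [inv_eq_of_mul_eq_one_left h.pp] at e ⊢) (by cases m <;> decide +kernel)

theorem dkT : ∀ m : Bool, H54.allLt (fun a => H54.bor (Nat.beq a 0)
    (rch (H80.PC.PT m) [1, 2, 4, 8, 16, 32] [64, 128, 192] 3 a)) 256 = true := by decide +kernel

theorem TP.kerT (h : F.TP a b p um η) {m : Bool} (hm : um = cond m F.u1 1) : Ker (p :: F.LU a b) := by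
  have nz : ∀ z ∈ [64, 128, 192], ev (p :: F.LU a b) z ≠ 1 := by simpa [LU, ev] using F.nzF
  exact (h.okT hm).ker nz (by simp [LU]) (dkT m)

theorem TB.tw (h : F.TB a b p q um um' η η') : F.TW a b p q um η := by
  have k := h.h2
  have h1 : q * F.t * q = F.t * F.v2 * F.u2 := k.pt
  have h2 : q * F.v1 * q = a * um' := k.pv2
  have h3 : q * b * q = b * F.v2 * F.u2 := k.pa
  have h4 : q * a * q = F.v1 * um' := k.pb
  have h5 : q * F.z * q = F.z * F.u2 := k.pz
  have h6 : q * F.u2 * q = F.u2 := k.pu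
  have h0 : q * F.v2 * q = F.v2 := k.pv1
  have e : F.z * F.u2 = F.u1 := by rw [F.u2_eq F.hu1, ← mul_assoc, F.zz, one_mul]
  have h7 : q * F.u1 * q = F.z := by
    calc _ = q * F.z * q * (q * F.u2 * q) := by
          rw [← e, show q * F.z * q * (q * F.u2 * q) = q * F.z * (q * q) * F.u2 * q by simp only [mul_assoc],
            show q * q = 1 from k.pp, mul_one, mul_assoc q F.z]
      _ = _ := by rw [h5, h6, mul_assoc, F.u22, mul_one]
  rw [e] at h5
  rw [h.h1.bv, mul_assoc F.v2, F.u2e] at h3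
  rw [mul_assoc F.t, F.u2e] at h1
  refine ⟨h.h1, false, ?_⟩
  rcases k.hm with hm | (hm : um' = F.u2)
  · rw [hm] at h2 h4
    exact ⟨false, by simpa [LU, imQ, ev] using ⟨ii' k.pp h1, by simpa using ii' k.pp h2, ii' k.pp h0,
      by simpa using ii' k.pp h4, ii' k.pp h3, ii' k.pp h7, ii' k.pp h5⟩⟩
  · rw [hm, F.u2e] at h2 h4
    exact ⟨true, by simpa [LU, imQ, ev] using ⟨ii' k.pp h1, ii' k.pp h2, ii' k.pp h0, ii' k.pp h4, ii' k.pp h3,
      ii' k.pp h7, ii' k.pp h5⟩⟩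

theorem exe (F : Fr G) (d : F.dl ≠ 1) : ∃ e : Bool, F.dl * F.dl = cond e F.t 1 :=
  (F.hdl.resolve_left d).2.2.2.2.elim (fun e => ⟨false, e⟩) fun e => ⟨true, e⟩

/-- the action of `dl` -/
theorem TP.imd (h : F.TP a b p um η) (d : F.dl ≠ 1) (db : F.dl * a * F.dl⁻¹ = b) {e : Bool}
    (he : F.dl * F.dl = cond e F.t 1) :
    List.Forall₂ (fun y c => F.dl * y * F.dl⁻¹ = ev (F.LU a b) c) (F.LU a b) (imD e) := by
  obtain ⟨d1, d2, d3, -, -⟩ := F.hdl.resolve_left d
  have d4 : F.dl * b * F.dl⁻¹ = cond e F.t 1 * a * (cond e F.t 1)⁻¹ := by rw [← db, ← he]; group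
  rw [F.u2e] at d3
  have d0 : F.dl * F.t * F.dl⁻¹ = F.t := by rw [F.dlt, mul_inv_cancel_right]
  cases e
  · simpa [LU, imD, ev] using ⟨d0, d1, d2, db, by simpa using d4, d3, F.dlz⟩
  · simpa [LU, imD, ev] using ⟨d0, d1, d2, db,
      d4.trans (ii' F.tt (sw2 h.aa F.tt h.at' F.tu1 h.au)), d3, F.dlz⟩

theorem TP.actd (h : F.TP a b p um η) (d : F.dl ≠ 1) (db : F.dl * a * F.dl⁻¹ = b) {e : Bool}
    (he : F.dl * F.dl = cond e F.t 1) (c : ℕ) :
    F.dl * ev (F.LU a b) c * F.dl⁻¹ = ev (F.LU a b) (act PU (imD e) c) := h.okU.conj (h.imd d db he) c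

theorem gens (F : Fr G) (a b : G) :
    List.Forall₂ (fun y c => y = ev (F.LU a b) c) (F.LU a b) [1, 2, 4, 8, 16, 32, 64] := by
  simp [LU, ev]

/-- relations from the action on codes -/
theorem TP.of_act (h : F.TP a b p um η) {g : G} {f : ℕ → ℕ} (e : ∀ c, g * ev (F.LU a b) c * g⁻¹ = ev (F.LU a b) (f c))
    {im : List ℕ} (k : [1, 2, 4, 8, 16, 32, 64].map f = im) :
    List.Forall₂ (fun y c => g * y * g⁻¹ = ev (F.LU a b) c) (F.LU a b) im := by
  rw [← k, List.forall₂_map_right_iff]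
  exact (F.gens a b).imp fun _ _ r => r ▸ e _

theorem TP.actdi (h : F.TP a b p um η) (d : F.dl ≠ 1) (db : F.dl * a * F.dl⁻¹ = b) {e : Bool}
    (he : F.dl * F.dl = cond e F.t 1) (c : ℕ) :
    F.dl⁻¹ * ev (F.LU a b) c * F.dl⁻¹⁻¹ = ev (F.LU a b) (act PU (imD e) (cj PU (cond e 1 0) c)) := by
  have t2 : F.dl * F.dl = ev (F.LU a b) (cond e 1 0) := by rw [he]; cases e <;> simp [LU, ev]
  have t4 : F.dl * F.dl * (F.dl * F.dl) = 1 := by rw [he]; cases e; exacts [one_mul 1, F.tt]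
  rw [← h.actd d db he, h.okU.cj, ← t2]
  calc _ = F.dl⁻¹ * (F.dl * F.dl * (F.dl * F.dl)) * ev (F.LU a b) c * (F.dl * F.dl * (F.dl * F.dl))⁻¹ * F.dl := by
        rw [t4]; group
    _ = _ := by group

/-- the action of `q = p ^ dl` -/
theorem TP.imq (h : F.TP a b p um η) (d : F.dl ≠ 1) (db : F.dl * a * F.dl⁻¹ = b) {e m : Bool}
    (he : F.dl * F.dl = cond e F.t 1) (hm : um = cond m F.u1 1) :
    List.Forall₂ (fun y c => F.dl * p * F.dl⁻¹ * y * (F.dl * p * F.dl⁻¹)⁻¹ = ev (F.LU a b) c) (F.LU a b)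
      (imQ e m) :=
  h.of_act (f := fun c => act PU (imD e) (act PU (imP m) (act PU (imD e) (cj PU (cond e 1 0) c)))) (fun c => by
    rw [← h.actd d db he, ← h.actp hm, ← h.actdi d db he]; group) (by cases e <;> cases m <;> decide +kernel)

theorem TS.tw (h : F.TS a b p um η π) : F.TW a b p (F.dl * p * F.dl⁻¹) um η :=
  let ⟨e, he⟩ := F.exe h.d1
  let ⟨m, hm⟩ := h.exm
  ⟨h.toTP, e, m, h.imq h.d1 h.db he hm⟩

theorem TS.impi (h : F.TS a b p um η π) {e m : Bool} (he : F.dl * F.dl = cond e F.t 1) (hm : um = cond m F.u1 1) :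
    List.Forall₂ (fun y c => π * y * π⁻¹ = ev (F.LU a b) c) (F.LU a b) (imPi e m) :=
  h.of_act (f := fun c => act PU (imP m) (act PU (imQ e m) (act PU (imP m) c))) (fun c => by
    rw [← h.actp hm, ← h.okU.conj (h.imq h.d1 h.db he hm), ← h.actp hm, inv_eq_of_mul_eq_one_left h.ππ,
      h.πU _ (F.evU a b c)]
    simp only [mul_inv_rev, inv_inv, inv_eq_of_mul_eq_one_left h.pp, mul_assoc]) (by cases e <;> cases m <;> decide +kernel)

theorem TS.okM (h : F.TS a b p um η π) {e m : Bool} (he : F.dl * F.dl = cond e F.t 1) (hm : um = cond m F.u1 1) :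
    Ok (π :: F.LU a b) (PM e m) :=
  h.okU.cons (im := imPi e m) (k := 128) rfl (h.ππ.trans (ev_zero _).symm)
    ((h.impi he hm).imp fun _ _ e => by rwa [inv_eq_of_mul_eq_one_left h.ππ] at e ⊢)
    (by cases e <;> cases m <;> decide +kernel)

theorem dS1 : ∀ e m : Bool, H54.allLt (fun a => Nat.beq (lk ((PS e m).headD (0, 0, 0)).2.2 a)
    (act (PM e m) (imDi e m) a)) 256 = true := by decide +kernel

theorem dS2 : ∀ e m : Bool, [1, 2, 4, 8, 16, 32, 64, 128].map (fun c => act (PM e m)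
    (mu (PM e m) (2 * cond e (cond m 8 87) (cond m 0 31)) 1 :: (imD e).map (2 * ·))
      (cj (PM e m) (cond e 2 0) c)) = imDi e m := by decide +kernel

theorem TS.okS (h : F.TS a b p um η π) {e m : Bool} (he : F.dl * F.dl = cond e F.t 1) (hm : um = cond m F.u1 1) :
    Ok (F.LS a b π) (PS e m) := by
  have M := h.okM he hm
  have hc : F.dl * π * F.dl⁻¹ * π = ev (F.LU a b) (cond e (cond m 8 87) (cond m 0 31)) := by
    have t1 := F.t1
    have u1 := F.hu1
    rcases h.hc with ⟨k1, k2, k⟩ | ⟨k1, k2, k⟩ | ⟨k1, k2, k⟩ | ⟨k1, k2, k⟩ <;> rw [k1] at he <;> rw [k2] at hm <;>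
      cases e <;> cases m <;>
      first | exact absurd he.symm t1 | exact absurd hm.symm u1 | exact absurd he t1 | exact absurd hm u1 |
        (rw [k]; simp [LU, ev, mul_assoc])
  have t2 : F.dl * F.dl = ev (π :: F.LU a b) (cond e 2 0) := by rw [he]; cases e <;> simp [LU, ev]
  have t4 : F.dl * F.dl * (F.dl * F.dl) = 1 := by rw [he]; cases e; exacts [one_mul 1, F.tt]
  have f1 : List.Forall₂ (fun y c => F.dl * y * F.dl⁻¹ = ev (π :: F.LU a b) c) (π :: F.LU a b)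
      (mu (PM e m) (2 * cond e (cond m 8 87) (cond m 0 31)) 1 :: (imD e).map (2 * ·)) := by
    refine .cons ?_ (List.forall₂_map_right_iff.2 ((h.imd h.d1 h.db he).imp fun _ _ r => by rwa [ev_bit0]))
    rw [M.mul, ev_bit0, ← hc, show ev (π :: F.LU a b) 1 = π by simp [ev, ev_zero], mul_assoc _ π π, h.ππ, mul_one]
  have g : List.Forall₂ (fun y c => y = ev (π :: F.LU a b) c) (π :: F.LU a b) [1, 2, 4, 8, 16, 32, 64, 128] := by
    simp [LU, ev]
  refine M.cons (im := imDi e m) (k := 256) (by simp [LU]) t2 ?_ (dS1 e m)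
  rw [← dS2 e m, List.forall₂_map_right_iff]
  refine g.imp fun y c r => ?_
  rw [← M.conj f1, M.cj, ← t2, ← r, show F.dl⁻¹ = F.dl * (F.dl * F.dl) from
    inv_eq_of_mul_eq_one_right (by rw [← t4]; group), show (F.dl * F.dl)⁻¹ = F.dl * F.dl from
    inv_eq_of_mul_eq_one_right t4]
  calc _ = F.dl * (F.dl * F.dl) * y * (F.dl * F.dl * (F.dl * F.dl)) * F.dl := by rw [t4, mul_one]
    _ = _ := by group

theorem dkS : ∀ e m : Bool, H54.allLt (fun a => H54.bor (Nat.beq a 0)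
    (rch (PS e m) [1, 2, 4, 8, 16, 32, 64] [128, 256, 384] 4 a)) 512 = true := by decide +kernel

theorem TS.kerS (h : F.TS a b p um η π) {e m : Bool} (he : F.dl * F.dl = cond e F.t 1) (hm : um = cond m F.u1 1) :
    Ker (F.LS a b π) := by
  have nz : ∀ z ∈ [128, 256, 384], ev (F.LS a b π) z ≠ 1 := by simpa [LS, LU, ev] using F.nzF
  exact (h.okS he hm).ker nz (by simp [LS, LU]) (dkS e m)

theorem TS.memS (h : F.TS a b p um η π) {x : G} : x ∈ F.SS a b π ↔ ∃ c < 512, x = ev (F.LS a b π) c := by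
  obtain ⟨_, he⟩ := F.exe h.d1
  obtain ⟨_, hm⟩ := h.exm
  rw [F.SS_eq, (h.okS he hm).mem, show 2 ^ (F.LS a b π).length = 512 by simp [LS, LU]]

theorem TS.cardS (h : F.TS a b p um η π) : Nat.card (F.SS a b π) = 512 := by
  obtain ⟨_, he⟩ := F.exe h.d1
  obtain ⟨_, hm⟩ := h.exm
  rw [F.SS_eq, (h.okS he hm).card (h.kerS he hm), show 2 ^ (F.LS a b π).length = 512 by simp [LS, LU]]

theorem TP.memT (h : F.TP a b p um η) {x : G} :
    x ∈ closure {y | y ∈ p :: F.LU a b} ↔ ∃ c < 256, x = ev (p :: F.LU a b) c := by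
  obtain ⟨_, hm⟩ := h.exm
  rw [(h.okT hm).mem, show 2 ^ (p :: F.LU a b).length = 256 by simp [LU]]

theorem TP.cardT (h : F.TP a b p um η) : Nat.card (closure {y | y ∈ p :: F.LU a b} : Subgroup G) = 256 := by
  obtain ⟨_, hm⟩ := h.exm
  rw [(h.okT hm).card (h.kerT hm), show 2 ^ (p :: F.LU a b).length = 256 by simp [LU]]

theorem TP.injT (h : F.TP a b p um η) {c d : ℕ} (hc : c < 256) (hd : d < 256)
    (e : ev (p :: F.LU a b) c = ev (p :: F.LU a b) d) : c = d := by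
  obtain ⟨_, hm⟩ := h.exm
  have k : 2 ^ (p :: F.LU a b).length = 256 := by simp [LU]
  exact (h.okT hm).inj (h.kerT hm) (by rwa [k]) (by rwa [k]) e

theorem TS.injS (h : F.TS a b p um η π) {c d : ℕ} (hc : c < 512) (hd : d < 512)
    (e : ev (F.LS a b π) c = ev (F.LS a b π) d) : c = d := by
  obtain ⟨_, he⟩ := F.exe h.d1
  obtain ⟨_, hm⟩ := h.exm
  have k : 2 ^ (F.LS a b π).length = 512 := by simp [LS, LU]
  exact (h.okS he hm).inj (h.kerS he hm) (by rwa [k]) (by rwa [k]) e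

theorem evS4 (F : Fr G) (a b π : G) (c : ℕ) : ev (F.LS a b π) (4 * c) = ev (F.LU a b) c := by
  rw [show 4 * c = 2 * (2 * c) by ring, LS, ev_bit0, ev_bit0]

theorem eqns_Cod : True := by
  have := @LU.eq_1.{0}
  have := @LS.eq_1.{0}
  trivial

end Fr

end H25.A6
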