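import Mathlib
import Cfsg.Agent.Lib.A6T.Defs
import Cfsg.Agent.Lib.A6S.Bas2

/-! The translations. -/

set_option autoImplicit false
set_option linter.unusedSectionVars false

namespace H25.A6

open Subgroup H69 H36.SW

variable {G : Type*} [Group G] [Finite G]

namespace Fr
variable {F : Fr G} {a b p q um um' η η' π : G}

open B2

theorem k0_cj {A : Subgroup G} {g x : G} (h : g ∈ 𝐂(A)) (hx : x ∈ A) : g * x * g⁻¹ = x :=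
  cj_of_comm (mem_centralizer_iff_commute.1 h x hx).symm

theorem k0_N {g x : G} (hX : g ∈ 𝐂(F.X1)) (hx : x ∈ F.X1) (e : g * F.t * g⁻¹ = F.t * x) :
    g ∈ 𝐍(F.W1) := by
  refine norm_gen ?_
  rintro y (rfl | rfl | rfl | rfl)
  · exact e ▸ mul_mem F.b2_tW (F.X1W1 hx)
  · exact (k0_cj hX F.b2_zX).symm ▸ F.X1W1 F.b2_zX
  · exact (k0_cj hX F.b2_vX).symm ▸ F.b2_vW
  · exact (k0_cj hX F.b2_uX).symm ▸ F.X1W1 F.b2_uX

theorem k0_xt {g : G} (hX : g ∈ 𝐂(F.X1)) (e : g * F.t * g⁻¹ = F.t * F.z) : F.XT := fun σ hσ e' _ _ => by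
  have := (F.nW1 (g⁻¹ * σ) (comm_of_cj (by
    rw [show g⁻¹ * σ * F.t * (g⁻¹ * σ)⁻¹ = g⁻¹ * (σ * F.t * σ⁻¹) * g by group, e', ← e]; group))
    (mul_mem (inv_mem (k0_N hX F.b2_zX e)) hσ)).2
  exact (mul_mem_cancel_left (inv_mem (centralizer_le_normalizer _ (centralizer_anti F.V1X1 hX)))).1 this

theorem k0_tau (c : F.CA) {σ : G} (hσ : σ ∈ F.NN) (e : σ * F.t * σ⁻¹ = F.t * F.u1) :
    ∃ w ∈ F.T, σ * w ∈ 𝐂(F.X1) ∧ σ * w * F.t * (σ * w)⁻¹ = F.t * F.u1 := by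
  rcases F.pure (F.Nz hσ.1) (c.fx1 σ hσ) (F.PT hσ.2.1 e (c.fx1 σ hσ)) with h | h
  · exact ⟨1, one_mem _, by rwa [mul_one], by rwa [mul_one]⟩
  · refine ⟨_, F.b2_v2T, h, ?_⟩
    rw [show σ * F.v2 * F.t * (σ * F.v2)⁻¹ = σ * (F.v2 * F.t * F.v2⁻¹) * σ⁻¹ by group,
      cj_of_comm F.tv2.symm, e]

theorem k0_main (c : F.CA) (h : ¬ F.XT) {g x : G} (hX : g ∈ 𝐂(F.X1)) (hx : x ∈ F.X1)
    (e : g * F.t * g⁻¹ = F.t * x) : x = 1 ∨ x = F.u1 := by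
  obtain ⟨a, ht, hu, -, hN, hZ⟩ := F.b2_red (mul_mem F.b2_tW (F.X1W1 hx))
  have gX := conj_mem_of_mem_normalizer (normalizer_le_normalizer_centralizer _ hN) hX
  have e' : a * g * a⁻¹ * F.t * (a * g * a⁻¹)⁻¹ = a * (F.t * x) * a⁻¹ := by
    rw [← e]
    conv_lhs => rw [← ht]
    group
  rcases F.b2_tF ((F.memZT.1 hZ).resolve_left fun k => F.b2_nF c.n1 c.n2 k ⟨_, e'⟩) with
    k | k | ⟨u, k | k⟩
  · exact .inl (mul_eq_left.1 (cj_inj' (k.trans ht.symm)))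
  · exact (h (k0_xt gX (e'.trans k))).elim
  · exact .inr (mul_left_cancel (cj_inj' (k.trans (by rw [cj_mul, ht, hu]))))
  · obtain ⟨σ, hσ, k'⟩ := c.s1
    obtain ⟨w, -, h1, h2⟩ := k0_tau c hσ k'
    refine (h (k0_xt (mul_mem gX h1) ?_)).elim
    rw [show ∀ g τ : G, g * τ * F.t * (g * τ)⁻¹ = g * (τ * F.t * τ⁻¹) * g⁻¹ by intros; group, h2, cj_mul, e', k,
      k0_cj gX F.b2_uX, F.u2_eq u, mul_assoc, mul_assoc, F.u11, mul_one]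

/-- only `u1` is a pure translation -/
theorem CA.k0 (c : F.CA) (h : ¬ F.XT) {g : G} (hX : g ∈ 𝐂(F.X1)) (hN : g ∈ 𝐍(F.W1)) :
    g * F.t * g⁻¹ = F.t ∨ g * F.t * g⁻¹ = F.t * F.u1 := by
  have e := (F.b2_tt (g * F.t * g⁻¹)).symm
  refine (k0_main c h hX ((c.omW1 (conj_mem_of_mem_normalizer hN F.b2_tW)).1 ⟨g, rfl⟩) e).imp
    (fun k => ?_) fun k => ?_
  · rw [e, k, mul_one]
  · rw [e, k]

theorem k0_card : Nat.card F.X1 = 8 := by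
  have := F.cardX1
  have := F.cardW1
  have := F.card16
  omega

theorem k0_16 (c : F.CA) (h1 : ¬ F.XT) {X0 : Subgroup G} {m : G} (h8 : 8 ≤ Nat.card X0)
    (le : X0 ≤ F.W1 ^ᶜ m) (no : ∀ x ∈ X0, ¬ F.Om x) {g x : G} (hg : g ∈ 𝐂(X0)) (hx : x ∈ X0)
    (e : g * (m * F.t * m⁻¹) * g⁻¹ = m * F.t * m⁻¹ * x) : x = 1 ∨ x = m * F.u1 * m⁻¹ := by
  have k : X0 = F.X1 ^ᶜ m := eq_of_le_of_card_ge (fun y hy => by
    obtain ⟨w, hw, rfl⟩ := mem_cj'.1 (le hy)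
    exact cj_mem m ((F.memW1'.1 hw).resolve_right fun k => no _ hy (((c.omW1 hw).2 k).cj m)))
    (by rwa [card_cj, k0_card])
  subst k
  obtain ⟨w, hw, rfl⟩ := mem_cj'.1 hx
  rw [← cj_centralizer] at hg
  obtain ⟨g, hg', rfl⟩ := mem_cj'.1 hg
  refine (k0_main c h1 hg' hw (cj_inj' (g := m) ?_)).imp (fun k => ?_) fun k => ?_
  · rw [cj_mul m F.t, ← e]
    group
  · rw [k, mul_one, mul_inv_cancel]
  · rw [k]

/-- an elementary abelian group of order 16 through `s ∈ Ω` has at most two pure translates of `s` -/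
theorem CA.k16 (c : F.CA) (h1 : ¬ F.XT) (h2 : ¬ F.sw.XT) {s : G} (o : F.Om s) {X0 : Subgroup G}
    (sq : ∀ x ∈ X0, x * x = 1) (h8 : 8 ≤ Nat.card X0) (cs : s ∈ 𝐂(X0)) (no : ∀ x ∈ X0, ¬ F.Om x)
    {g k x y : G} (hg : g ∈ 𝐂(X0)) (hk : k ∈ 𝐂(X0)) (hx : x ∈ X0) (hy : y ∈ X0)
    (e1 : g * s * g⁻¹ = s * x) (e2 : k * s * k⁻¹ = s * y) : x = 1 ∨ y = 1 ∨ x = y := by
  have sn := centralizer_le_normalizer _ cs
  have s2 : s * s ∈ X0 := o.sq.1 ▸ one_mem _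
  have sq' : ∀ w ∈ X0 ⊔ zpowers s, w * w = 1 := fun w hw => by
    rcases (mem_adj sn s2).1 hw with m | m
    · exact sq w m
    · have : Commute (w * s⁻¹) s := mem_centralizer_iff_commute.1 cs _ m
      rw [← inv_mul_cancel_right w s, ← pow_two, this.mul_pow, pow_two, pow_two, sq _ m, o.sq.1, one_mul]
  obtain ⟨m, rfl, e⟩ := F.ea_cj o sq' (fun w hw => mem_centralizer_singleton_iff.2
    (comm_of_sq sq' hw (mem_sup_right (mem_zpowers s)))) (by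
      rw [card_adj sn s2 fun k => no s k o, F.card16]; omega)
  rcases e with e | e
  · rcases k0_16 c h1 h8 (e ▸ le_sup_left) no hg hx e1 with a | a <;>
      rcases k0_16 c h1 h8 (e ▸ le_sup_left) no hk hy e2 with b | b <;> simp only [a, b, true_or, or_true]
  · have le : X0 ≤ F.sw.W1 ^ᶜ m := le_sup_left.trans e.ge
    rcases k0_16 c.sw h2 h8 le no hg hx e1 with a | a <;>
      rcases k0_16 c.sw h2 h8 le no hk hy e2 with b | b <;> simp only [a, b, true_or, or_true]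

theorem k0_hyp (c : F.CA) {m x : G} (hx : x ∈ F.W1 ^ᶜ m) : F.Om x ∨ F.Om (m * F.t * m⁻¹ * x) := by
  obtain ⟨w, hw, rfl⟩ := mem_cj'.1 hx
  rw [← cj_mul]
  rcases F.memW1'.1 hw with k | k
  · exact .inr (((c.omW1 (mul_mem F.b2_tW hw)).2 ((F.b2_tt w).symm ▸ k)).cj m)
  · exact .inl (((c.omW1 hw).2 k).cj m)

/-- an elementary abelian group of order 16 through `s ∈ Ω`: the complement of `Ω` is a subgroup -/
theorem CA.hyp (c : F.CA) {s : G} (o : F.Om s) {X : Subgroup G} (sq : ∀ x ∈ X, x * x = 1)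
    (h16 : 16 ≤ Nat.card X) (hs : s ∈ X) {x : G} (hx : x ∈ X) : F.Om x ∨ F.Om (s * x) := by
  obtain ⟨m, rfl, e | e⟩ := F.ea_cj o sq (fun w hw => mem_centralizer_singleton_iff.2
    (comm_of_sq sq hw hs)) (by rwa [F.card16])
  · exact k0_hyp c (e ▸ hx)
  · exact k0_hyp c.sw (e.ge hx)

theorem k0_orb (c : F.CA) : Set.ncard {s | ∃ n ∈ 𝐍(F.T), n * F.t * n⁻¹ = s} = 2 ^ 2 := by
  have : {s | ∃ n ∈ 𝐍(F.T), n * F.t * n⁻¹ = s} = (fun x => F.t * x) '' (F.F0 : Set G) := by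
    ext s
    constructor
    · rintro ⟨n, hn, rfl⟩
      exact ⟨_, (F.memZT.1 (conj_mem_of_mem_normalizer (F.NZT hn) F.b2_tZ)).resolve_left
        fun k => F.b2_nF c.n1 c.n2 k ⟨n, rfl⟩, F.b2_tt _⟩
    · rintro ⟨x, hx, rfl⟩
      rcases F.memF0.1 hx with rfl | rfl | rfl | rfl
      · exact ⟨1, one_mem _, by simp⟩
      · exact c.sz.imp fun σ h => ⟨h.1.1, h.2⟩
      · exact c.s1.imp fun σ h => ⟨h.1.1, h.2⟩
      · exact c.s2.imp fun σ h => ⟨h.1.1, h.2.trans (by rw [F.u2_eq F.hu1])⟩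
  rw [this, Set.ncard_image_of_injective _ (mul_right_injective _), ← Nat.card_coe_set_eq]
  exact (F.cardF0.resolve_left fun k => F.hu1 k.1).2

theorem k0_memX {x : G} (h : x ∈ F.X1) : x ∈ F.F0 ∨ F.v1 * x ∈ F.F0 := by
  obtain ⟨b, d, e, rfl⟩ := F.memX1.1 h
  have m : F.z ^ (d : ℕ) * F.u1 ^ (e : ℕ) ∈ F.F0 :=
    mul_mem (pow_mem (subset_closure (by simp)) _) (pow_mem (subset_closure (by simp)) _)
  fin_cases b
  · exact .inl (by simpa using m)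
  · exact .inr (by simpa [← mul_assoc, F.v11] using m)

theorem k0_vF : F.v1 ∉ F.F0 := fun k => F.B1nc
  (comm_of_sq (fun _ => F.sw.sqW1) (F.sw.X1W1 (F.sw.F0X1 (F.sw_F0 ▸ k))) F.sw.b2_vW)

theorem k0_cw {τ w : G} (hw : w ∈ F.W1) (hX : τ ∈ 𝐂(F.X1)) (e : τ * F.t * τ⁻¹ = F.t * F.u1) :
    τ * w ∈ 𝐂(F.X1) ∧ τ * w * F.t * (τ * w)⁻¹ = F.t * F.u1 :=
  ⟨mul_mem hX (centralizer_anti F.X1W1 (F.b2_WC hw)), by
    rw [show τ * w * F.t * (τ * w)⁻¹ = τ * (w * F.t * w⁻¹) * τ⁻¹ by group, k0_cj (F.b2_WC hw) F.b2_tW, e]⟩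

theorem k0_nc (h2 : ¬ F.sw.XT) (c : F.CA) {τ : G} (hX : τ ∈ 𝐂(F.X1)) (e : τ * F.t * τ⁻¹ = F.t * F.u1) :
    τ * F.v2 * τ⁻¹ ≠ F.v2 := fun k => by
  refine (k0_main c.sw h2 (g := τ) (cent_gen ?_) F.sw.u2X1 e).elim F.hu1 fun k => F.z1 ?_
  · rintro x (rfl | rfl | rfl)
    exacts [hX _ F.b2_zX, (comm_of_cj k).symm, hX _ F.u2X1]
  · exact mul_eq_right.1 ((F.u2_eq F.hu1).symm.trans k.symm)

theorem k0_v2 (h2 : ¬ F.sw.XT) (c : F.CA) {τ : G} (hN : τ ∈ F.NN) (hX : τ ∈ 𝐂(F.X1))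
    (e : τ * F.t * τ⁻¹ = F.t * F.u1) : ∃ w ∈ F.W1, τ * w * F.v2 * (τ * w)⁻¹ = F.v2 * F.u1 := by
  have m := conj_mem_of_mem_normalizer hN.2.2 F.sw.b2_vW
  have m1 : τ * F.v2 * τ⁻¹ ∈ F.sw.X1 := (F.sw.memW1'.1 m).resolve_right fun k =>
    F.sw.nX1 c.n2 c.n1 F.sw.b2_vX (.of_cj τ ((c.sw.omW1 m).2 k))
  have m2 : F.v2 * (τ * F.v2 * τ⁻¹) ∈ F.F0 := F.sw_F0 ▸ (k0_memX m1).resolve_left fun k =>
    k0_vF (F := F.sw) (by rwa [cj_inj' (k0_cj hX (F.F0X1 (F.sw_F0 ▸ k)))] at k)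
  have e1 : τ * F.v2 * τ⁻¹ = F.v2 * (F.v2 * (τ * F.v2 * τ⁻¹)) := by rw [← mul_assoc F.v2, F.v22, one_mul]
  have e2 : τ * F.v1 * F.v2 * (τ * F.v1)⁻¹ = F.v2 * (F.z * (F.v2 * (τ * F.v2 * τ⁻¹))) := by
    rw [show τ * F.v1 * F.v2 * (τ * F.v1)⁻¹ = τ * (F.v1 * F.v2 * F.v1⁻¹) * τ⁻¹ by group,
      show F.v1 * F.v2 * F.v1⁻¹ = F.z * F.v2 from F.sw.b2_v2v, cj_mul, k0_cj hX F.b2_zX, ← mul_assoc F.v2,
      ← F.B1zv2, mul_assoc F.z F.v2, ← e1]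
  rcases F.memF0.1 m2 with k | k | k | k <;> rw [k] at e1 e2
  · exact (k0_nc h2 c hX e (e1.trans (mul_one _))).elim
  · obtain ⟨a, b⟩ := k0_cw F.b2_vW hX e
    exact (k0_nc h2 c a b (by rw [e2, F.zz, mul_one])).elim
  · exact ⟨1, one_mem _, by rwa [mul_one]⟩
  · exact ⟨_, F.b2_vW, by rw [e2, F.b2_zz]⟩

theorem k0_sq {τ : G} (h2 : P2 τ) (hN : τ ∈ F.NN) (hX : τ ∈ 𝐂(F.X1)) (e : τ * F.t * τ⁻¹ = F.t * F.u1)
    (e2 : τ * F.v2 * τ⁻¹ = F.v2 * F.u1) : τ * τ ∈ F.F0 := by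
  have k (x : G) (h : τ * x * τ⁻¹ = x * F.u1) : τ * τ * x = x * (τ * τ) := comm_of_cj (by
    rw [show τ * τ * x * (τ * τ)⁻¹ = τ * (τ * x * τ⁻¹) * τ⁻¹ by group, h, cj_mul, h, k0_cj hX F.b2_uX,
      mul_assoc, F.u11, mul_one])
  have m := mul_mem hX hX
  refine (F.memZT.1 ((F.cenT (F.p2T (k _ e) (mul_mem hN hN).1 (mul_mem hN hN).2.1
    (h2.mul h2 rfl))).1 (cent_gen ?_))).resolve_right fun h => F.hu1 (mul_eq_left.1 (e.symm.trans ?_))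
  · rintro x (rfl | rfl | rfl | rfl | rfl)
    exacts [(k _ e).symm, m _ F.b2_vX, (k _ e2).symm, m _ F.b2_uX, m _ F.u2X1]
  · have := k0_cj hX (F.F0X1 h)
    rw [cj_mul, show τ * (τ * τ) * τ⁻¹ = τ * τ by group] at this
    exact mul_right_cancel this

theorem k0_nz {τ : G} (hX : τ ∈ 𝐂(F.X1)) (e : τ * F.t * τ⁻¹ = F.t * F.u1) : τ * τ ≠ F.z := fun h => by
  have yX := F.b2_NX F.b2_y1V F.y1u
  have gX := conj_mem_of_mem_normalizer (normalizer_le_normalizer_centralizer _ yX) hX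
  have e' : F.y1 * τ * F.y1⁻¹ * F.t * (F.y1 * τ * F.y1⁻¹)⁻¹ = F.t * F.u1 := by
    conv_lhs => rw [← cj_of_comm F.y1t]
    conv_rhs => rw [← cj_of_comm F.y1t, ← cj_of_comm F.y1u, ← cj_mul, ← e]
    group
  have s' : F.y1 * τ * F.y1⁻¹ * (F.y1 * τ * F.y1⁻¹) = F.v1 := by rw [← cj_mul, h, F.y1z]
  generalize F.y1 * τ * F.y1⁻¹ = g at gX e' s'
  obtain ⟨O, h1, h2, h3⟩ := F.exO1
  have m := mul_mem (inv_mem hX) gX
  obtain ⟨w, hw, o, ho, k⟩ := h2 (τ⁻¹ * g) (cent_gen (by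
    rintro x (rfl | rfl | rfl | rfl)
    · refine (comm_of_cj ?_).symm
      rw [show τ⁻¹ * g * F.t * (τ⁻¹ * g)⁻¹ = τ⁻¹ * (g * F.t * g⁻¹) * τ by group, e', ← e]
      group
    exacts [m _ F.b2_zX, m _ F.b2_vX, m _ F.b2_uX]))
  rw [inv_mul_eq_iff_eq_mul, ← mul_assoc] at k
  have zF : F.z ∈ F.F0 := subset_closure (by simp)
  have k1 : τ * w * (τ * w) ∈ F.F0 := by
    have c {x y : G} (hx : x ∈ F.W1) (hy : y ∈ F.W1) := comm_of_sq (fun _ => F.sqW1) hx hy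
    have zW := F.X1W1 F.b2_zX
    rw [show τ * w * (τ * w) = τ * w * τ⁻¹ * (τ * τ * w) by group, h, c zW hw, ← mul_assoc]
    refine mul_mem ?_ zF
    rcases F.memW1'.1 hw with n | n
    · rw [k0_cj hX n, F.sqW1 hw]
      exact one_mem _
    · have := k0_cj hX n
      rw [cj_mul, e, mul_assoc, mul_right_inj] at this
      rw [eq_inv_mul_iff_mul_eq.2 this, mul_assoc, F.sqW1 hw, mul_one]
      exact inv_mem (subset_closure (by simp))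
  have k2 : (τ * w)⁻¹ * o * (τ * w) * o ∈ O := mul_mem (conj_mem_of_mem_normalizer'
    (h3 (mul_mem (k0_N hX F.b2_uX e) (le_normalizer hw))) ho) ho
  have k3 : (τ * w)⁻¹ * o * (τ * w) * o = (τ * w * (τ * w))⁻¹ * F.v1 := by
    rw [← s', k]; group
  rw [k3] at k2
  have := (P2.of_sq (F.sqW1 (mul_mem (inv_mem (F.X1W1 (F.F0X1 k1))) F.b2_vW))).eq_one ((h1 _).1 k2).2
  exact k0_vF (inv_mul_eq_one.1 this ▸ k1)

theorem k0_side (c : F.CA) (h2 : ¬ F.sw.XT) {S : Subgroup G} (hS : IsPGroup 2 S) (hT : F.TD ≤ S)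
    (hN : S ≤ 𝐍(F.T)) {s : G} (hs : s ∈ S) (e : s * F.t * s⁻¹ = F.t * F.u1) :
    ∃ a ∈ S, a * a = 1 ∧ a * F.z = F.z * a ∧ a * F.v1 = F.v1 * a ∧ a * F.u1 = F.u1 * a ∧
      a * F.t * a = F.t * F.u1 ∧ a * F.v2 * a = F.v2 * F.u1 := by
  obtain ⟨s, hs, sN, e⟩ : ∃ s ∈ S, s ∈ F.NN ∧ s * F.t * s⁻¹ = F.t * F.u1 := by
    by_cases d : F.dl = 1
    · refine ⟨s, hs, ⟨hN hs, (F.permW (hN hs)).resolve_right fun k => ?_⟩, e⟩
      obtain ⟨σ, hσ, e'⟩ := c.s1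
      refine F.W12 d (σ⁻¹ * s) (comm_of_cj ?_) ?_
      · rw [show σ⁻¹ * s * F.t * (σ⁻¹ * s)⁻¹ = σ⁻¹ * (s * F.t * s⁻¹) * σ by group, e, ← e']
        group
      · exact (cj_cj F.W1 s σ⁻¹).symm.trans (k.1 ▸ cj_eq_of_mem_normalizer (inv_mem hσ.2.2))
    · rcases F.toNN d (hN hs) with k | k
      · exact ⟨s, hs, k, e⟩
      · refine ⟨_, mul_mem hs (hT F.dlTD), k, ?_⟩
        rw [show s * F.dl * F.t * (s * F.dl)⁻¹ = s * (F.dl * F.t * F.dl⁻¹) * s⁻¹ by group,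
          cj_of_comm F.dlt, e]
  have TS := F.TTD.trans hT
  obtain ⟨w, hw, hX, e⟩ := k0_tau c sN e
  replace hs := mul_mem hs (TS hw)
  replace sN := mul_mem sN (F.TNN hw)
  generalize s * w = s at hs sN hX e
  obtain ⟨w, hw, e2⟩ := k0_v2 h2 c sN hX e
  obtain ⟨hX, e⟩ := k0_cw hw hX e
  replace hs := mul_mem hs (TS (F.W1T hw))
  replace sN := mul_mem sN (F.TNN (F.W1T hw))
  generalize s * w = s at hs sN hX e e2
  have fin (a : G) (ha : a ∈ S) (aa : a * a = 1) (hX : a ∈ 𝐂(F.X1)) (e : a * F.t * a⁻¹ = F.t * F.u1)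
      (e2 : a * F.v2 * a⁻¹ = F.v2 * F.u1) : ∃ a ∈ S, a * a = 1 ∧ a * F.z = F.z * a ∧ a * F.v1 = F.v1 * a ∧
      a * F.u1 = F.u1 * a ∧ a * F.t * a = F.t * F.u1 ∧ a * F.v2 * a = F.v2 * F.u1 := by
    rw [inv_eq_of_mul_eq_one_right aa] at e e2
    exact ⟨a, ha, aa, (hX _ F.b2_zX).symm, (hX _ F.b2_vX).symm, (hX _ F.b2_uX).symm, e, e2⟩
  have m := k0_sq (.of_mem hS hs) sN hX e e2
  obtain ⟨hX', e'⟩ := k0_cw F.b2_tW hX e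
  have k : s * F.t * (s * F.t) = F.u1 * (s * s) := by
    rw [show s * F.t * (s * F.t) = s * F.t * s⁻¹ * (s * s * F.t) by group, e,
      comm_of_sq (fun _ => F.sqW1) (F.X1W1 (F.F0X1 m)) F.b2_tW, F.tu1, mul_assoc, F.b2_tt]
  rcases F.memF0.1 m with n | n | n | n
  · exact fin s hs n hX e e2
  · exact (k0_nz hX e n).elim
  · refine fin _ (mul_mem hs (TS F.b2_tT)) (by rw [k, n, F.u11]) hX' e' ?_
    rw [show s * F.t * F.v2 * (s * F.t)⁻¹ = s * (F.t * F.v2 * F.t⁻¹) * s⁻¹ by group, cj_of_comm F.tv2, e2]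
  · exact (k0_nz hX' e' (by rw [k, n, F.zu1, ← mul_assoc, F.u11, one_mul])).elim

theorem CA.exTA (c : F.CA) (h1 : ¬ F.XT) (h2 : ¬ F.sw.XT) :
    ∃ a b, F.TA a b ∧ (F.dl ≠ 1 → F.dl * a * F.dl⁻¹ = b) := by
  obtain ⟨S, hS, hT, tr⟩ := ret F.sylTD.isP F.TDN (k0_orb c)
  obtain ⟨σ, hσ, e⟩ := c.s1
  obtain ⟨s, hs, e'⟩ := tr σ hσ.1
  obtain ⟨a, ha, a1, a2, a3, a4, a5, a6⟩ := k0_side c h2 hS.isP hT hS.le hs (e'.trans e)
  obtain ⟨b, hb, ⟨b1, b2, b3, b4, b5, b6⟩, k⟩ : ∃ b ∈ S, (b * b = 1 ∧ b * F.z = F.z * b ∧ b * F.v2 = F.v2 * b ∧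
      b * F.u2 = F.u2 * b ∧ b * F.t * b = F.t * F.u2 ∧ b * F.v1 * b = F.v1 * F.u2) ∧
      (F.dl ≠ 1 → F.dl * a * F.dl⁻¹ = b) := by
    rcases F.hdl with d | ⟨d1, d2, d3, -⟩
    · obtain ⟨σ, hσ, e⟩ := c.s2
      obtain ⟨s, hs, e'⟩ := tr σ hσ.1
      obtain ⟨b, hb, k⟩ := k0_side c.sw h1 hS.isP (F.sw_TD ▸ hT) (F.sw_T ▸ hS.le) hs (e'.trans e)
      exact ⟨b, hb, k, fun n => (n d).elim⟩
    · have d4 := cj_of_comm F.dlt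
      refine ⟨_, mul_mem (mul_mem (hT F.dlTD) ha) (inv_mem (hT F.dlTD)), ⟨cjsq a1 _,
        F.dlz ▸ comm_cj _ a2, d1 ▸ comm_cj _ a3, d3 ▸ comm_cj _ a4, ?_, ?_⟩, fun _ => rfl⟩
      · rw [← d4, ← d3, ← cj_mul, ← cj_mul, ← cj_mul, a5]
      · rw [← d2, ← d3, ← cj_mul, ← cj_mul, ← cj_mul, a6]
  refine ⟨a, b, ⟨c, h1, h2, a1, b1, a2, a3, a4, b2, b3, b4, a5, b5, a6, b6, hS.isP.to_le ((closure_le _).2 ?_)⟩, k⟩
  have TS := F.TTD.trans hT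
  rintro x (rfl | rfl | rfl | rfl | rfl | rfl | rfl)
  exacts [TS F.b2_tT, TS F.b2_v1T, TS F.b2_v2T, TS F.b2_uT, TS F.b2_u2T, ha, hb]

end Fr

end H25.A6
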