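import Mathlib
import Cfsg.Agent.Lib.A6T.Cod

/-! The classes inside `U0`. -/

set_option autoImplicit false
set_option maxRecDepth 100000

namespace H25.A6

open Subgroup H69 H36.SW H80.PC

variable {G : Type*} [Group G] [Finite G]

namespace OmA

theorem d1 : ∀ m : Bool, ∀ c < 64, mu (H80.PC.PT m) (2 * (2 * c)) (2 * (2 * c)) = 0 → c = 0 ∨
    (cj (H80.PC.PT m) (lk (wT m) (2 * (2 * c))) (lk (rT m) (2 * (2 * c))) = 2 * (2 * c) ∧
      lk (rT m) (2 * (2 * c)) ∈ [4, 8, 16, 40, 64, 128]) := by decide +kernel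

theorem d2 : ∀ e m m' : Bool, (∃ w < 256, cj (H80.PC.PT m) w (2 * act PU (imQ e m') 2) = 16) ∧
    (∃ w < 256, cj (H80.PC.PT m) w (2 * act PU (imQ e m') (act PU (imP m) 4)) = 40) ∧
    ∃ w < 256, cj (H80.PC.PT m) w (2 * act PU (imQ e m') 64) = 64 := by decide +kernel

end OmA

namespace Fr
variable {F : Fr G} {a b p q um η π : G}

/-- a short orbit under a big 2-group -/
theorem nOm {xs : List G} {P : List Lv} (ok : Ok xs P) (k : Ker xs) {c : ℕ} {L : List ℕ}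
    (hL : ∀ g < 2 ^ xs.length, cj P g c ∈ L) (hc : L.length * Nat.card F.TD < 2 ^ xs.length) :
    ¬ F.Om (ev xs c) := by
  classical
  intro h
  have e := H25.A7.card_orbit (ev xs c) (closure {x | x ∈ xs})
  rw [ok.card k] at e
  refine hc.not_ge (e ▸ Nat.mul_le_mul ?_ (F.two_le' h ((ok.isP k).to_le inf_le_left) inf_le_right))
  refine (Set.ncard_le_ncard (t := ((L.map (ev xs)).toFinset : Set G)) ?_ (Finset.finite_toSet _)).trans ?_
  · rintro _ ⟨n, hn, rfl⟩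
    obtain ⟨g, hg, rfl⟩ := ok.mem.1 hn
    rw [← ok.cj, List.coe_toFinset]
    exact List.mem_map_of_mem (hL g hg)
  · rw [Set.ncard_coe_finset]
    exact (List.toFinset_card_le _).trans (List.length_map _).le

omit [Finite G] in
theorem Zc.cj {s : G} (h : F.Zc s) (g : G) : F.Zc (g * s * g⁻¹) :=
  h.elim fun k e => ⟨g * k, by rw [← e]; group⟩

theorem Zc.nOm {s : G} (h : F.Zc s) : ¬ F.Om s :=
  h.elim fun k e o => F.nz (Om.of_cj k (e.symm ▸ o))

theorem Zc.memE {s : G} (h : F.Zc s) : s ∈ F.E :=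
  h.elim fun k e => e ▸ F.En.conj_mem _ F.zE k

theorem TW.zc (h : F.TW a b p q um η) {x : G} (hx : x ∈ F.U00 a b) (h2 : x * x = 1) (h1 : x ≠ 1) : F.Zc x := by
  obtain ⟨m, hm⟩ := h.exm
  obtain ⟨e, m', hq⟩ := h.hq
  have T := h.okT hm
  have cT : ∀ {c d w}, F.Zc (ev (p :: F.LU a b) c) → cj (H80.PC.PT m) w c = d → F.Zc (ev (p :: F.LU a b) d) :=
    fun z e => by rw [← e, T.cj]; exact z.cj _
  have cQ : ∀ {c}, F.Zc (ev (F.LU a b) c) → F.Zc (ev (p :: F.LU a b) (2 * act PU (imQ e m') c)) :=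
    fun z => by rw [ev_bit0, ← h.okU.conj hq]; exact z.cj _
  have z1 : F.Zc F.v1 := ⟨_, F.y1z⟩
  have z2 : F.Zc F.v2 := ⟨_, F.y2z⟩
  have z0 : F.Zc F.z := ⟨1, by simp⟩
  obtain ⟨⟨w1, -, e1⟩, ⟨w2, -, e2⟩, w3, -, e3⟩ := OmA.d2 e m m'
  have a1 := cT (cQ (c := 2) (by simpa [LU, ev] using z1)) e1
  have a2 := cT (cQ (by
    rw [← h.actp hm]; exact Zc.cj (show F.Zc (ev (F.LU a b) 4) by simpa [LU, ev] using z2) _)) e2
  have a3 := cT (cQ (c := 64) (by simpa [LU, ev] using z0)) e3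
  obtain ⟨c, hc, rfl⟩ := h.mem00.1 hx
  rw [← ev_bit0 p] at h1 h2 ⊢
  have l : 2 ^ (H80.PC.PT m).length = 256 := by rw [T.len]; simp [LU]
  rcases OmA.d1 m c hc (h.injT (l ▸ mu_lt _ _ _) (by decide) (by rw [T.mul, h2, ev_zero])) with rfl | ⟨k1, k2⟩
  · exact absurd (ev_zero _) h1
  refine cT ?_ k1
  generalize lk (rT m) (2 * (2 * c)) = r at k2
  simp only [List.mem_cons, List.not_mem_nil, or_false] at k2
  rcases k2 with rfl | rfl | rfl | rfl | rfl | rfl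
  exacts [by simpa [LU, ev] using z1, by simpa [LU, ev] using z2, a1, a2, a3, by simpa [LU, ev] using z0]

theorem TW.n00 (h : F.TW a b p q um η) {x : G} (hx : x ∈ F.U00 a b) : ¬ F.Om x :=
  fun o => (h.zc hx o.sq.1 o.sq.2).nOm o

theorem TW.UE (h : F.TW a b p q um η) : F.U00 a b ≤ F.E := by
  refine (closure_le _).2 fun x hx => ?_
  by_cases e : x = 1
  · exact e ▸ one_mem _
  refine (h.zc (subset_closure hx) ?_ e).memE
  rcases hx with rfl | rfl | rfl | rfl | rfl | rfl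
  exacts [F.v11, F.v22, h.aa, h.bb, F.u11, F.zz]

theorem TW.zp (h : F.TW a b p q um η) : F.Zc p := by
  rw [← h.ηp]
  refine (h.zc (mul_mem (subset_closure (by simp)) (subset_closure (by simp))) ?_ fun e => ?_).cj η
  · rw [mul_assoc, ← mul_assoc F.v2, ← h.bv, mul_assoc, F.v22, mul_one, h.bb]
  · have k := h.bt
    rw [(eq_inv_of_mul_eq_one_left e).trans F.b2_v2i, ← F.tv2, mul_assoc, F.v22, mul_right_inj] at k
    exact F.u2_ne F.hu1 k.symm

end Fr

end H25.A6
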