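import Mathlib
import Cfsg.Agent.Lib.A6T.OmA
import Cfsg.Agent.Lib.A6T.OmB
import Cfsg.Agent.Lib.A6S.Bas3

/-! `dl = 1`: the Sylow 2-subgroup. -/

set_option autoImplicit false
set_option maxRecDepth 100000

namespace H25.A6

open Subgroup H69 H36.SW H80.PC B2

variable {G : Type*} [Group G] [Finite G]

namespace N1a

theorem dZ : ∀ m : Bool, ∀ c < 256, (∀ g ∈ [1, 2, 4, 8, 16, 32], cm (H80.PC.PT m) g c = 0) → c = 0 ∨ c = 64 := by
  decide +kernel

theorem dF : ∀ m : Bool, ∀ c < 256, mu (H80.PC.PT m) c c = 0 →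
    (∀ g ∈ [1, 2, 4, 8, 16, 32], cm (H80.PC.PT m) g c = 0 ∨ cm (H80.PC.PT m) g c = 64) →
    c = 0 ∨ c = 64 ∨ c ∈ [128, 192] := by
  decide +kernel

theorem dC : ∀ m : Bool, ∀ c ∈ [128, 192], ∀ x < 256, cm (H80.PC.PT m) x c = 0 → x % 2 = 0 := by
  decide +kernel

theorem dU : ∀ m : Bool, ∀ g < 256, cm (H80.PC.PT m) g 64 = 0 ∧
    (cm (H80.PC.PT m) g 128 = 0 ∨ cm (H80.PC.PT m) g 128 = 64) := by
  decide +kernel

theorem dz : ∀ g < 128, cm PU g 64 = 0 := by decide +kernel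

theorem dO : ∀ m : Bool, ∀ c < 128, c % 32 = 31 → ∀ g < 256, cj (H80.PC.PT m) g (2 * c) ∈ [62, 126, 190, 254] := by
  decide +kernel

end N1a

namespace Fr
variable {F : Fr G} {a b p q um η π : G}

theorem TW.sylT (h : F.TW a b p q um η) (d : F.dl = 1) :
    IsSylowIn 2 (closure {y | y ∈ p :: F.LU a b}) ⊤ := by
  obtain ⟨m, hm⟩ := h.exm
  have ok := h.okT hm
  have ker := h.kerT hm
  have len : 2 ^ (H80.PC.PT m).length = 256 := by rw [ok.len]; simp [LU]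
  have mem : ∀ c, ev (p :: F.LU a b) c ∈ closure {y | y ∈ p :: F.LU a b} := ev_mem fun _ hx => subset_closure hx
  have eu : ev (p :: F.LU a b) 64 = F.u1 := by simp [LU, ev]
  have ez : ev (p :: F.LU a b) 128 = F.z := by simp [LU, ev]
  have UT : F.U0 a b ≤ closure {y | y ∈ p :: F.LU a b} := by
    rw [F.U0_eq]; exact closure_mono fun _ hx => List.mem_cons_of_mem _ hx
  have cmi : ∀ {x y c : ℕ}, c < 256 → (cm (H80.PC.PT m) x y = c ↔ ev (p :: F.LU a b) x * ev (p :: F.LU a b) y *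
      (ev (p :: F.LU a b) x)⁻¹ * (ev (p :: F.LU a b) y)⁻¹ = ev (p :: F.LU a b) c) := fun hc =>
    ⟨fun e => by rw [← ok.cm, e], fun e => h.injT (len ▸ cm_lt _ _ _) hc (by rw [ok.cm, e])⟩
  refine H25.A7.syl_of_norm (t := F.t) (ok.isP ker) le_top ?_ fun k _ hk => ?_
  · rw [top_inf_eq]
    have := F.sylT d
    rwa [this.max _ (le_inf (h.TU.trans UT) F.TC) inf_le_right (ok.isP ker).to_inf_left]
  -- commutators with conjugates
  have cc : ∀ (g : ℕ) (x : G), ∃ g' < 256, ev (p :: F.LU a b) g * (k * x * k⁻¹) * (ev (p :: F.LU a b) g)⁻¹ *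
      (k * x * k⁻¹)⁻¹ = k * (ev (p :: F.LU a b) g' * x * (ev (p :: F.LU a b) g')⁻¹ * x⁻¹) * k⁻¹ := fun g x => by
    obtain ⟨g', hg, e⟩ := h.memT.1 (conj_mem_of_mem_normalizer (inv_mem hk) (mem g))
    exact ⟨g', hg, by rw [← e]; group⟩
  have ku : k * F.u1 * k⁻¹ = F.u1 := by
    obtain ⟨c, hc, e⟩ := h.memT.1 (conj_mem_of_mem_normalizer hk (eu ▸ mem 64))
    rcases N1a.dZ m c hc (fun g _ => (cmi (by norm_num)).2 (by
      obtain ⟨g', hg, e'⟩ := cc g F.u1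
      rw [← e, e', ← eu, (cmi (by norm_num)).1 (N1a.dU m g' hg).1, ev_zero, mul_one, mul_inv_cancel])) with rfl | rfl
    · rw [ev_zero, conj_eq_one_iff] at e
      exact (F.hu1 e).elim
    · rw [e, eu]
  have kU : k ∈ 𝐍(F.U0 a b) := by
    obtain ⟨c, hc, e⟩ := h.memT.1 (conj_mem_of_mem_normalizer hk (ez ▸ mem 128))
    rcases N1a.dF m c hc (h.injT (len ▸ mu_lt _ _ _) (by norm_num) (by
      rw [ok.mul, ← e, ev_zero, ← cj_mul, F.zz, mul_one, mul_inv_cancel])) (fun g _ => by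
      obtain ⟨g', hg, e'⟩ := cc g F.z
      refine (N1a.dU m g' hg).2.imp (fun r => (cmi (by norm_num)).2 ?_) fun r => (cmi (by norm_num)).2 ?_
      · rw [← e, e', ← ez, (cmi (by norm_num)).1 r, ev_zero, mul_one, mul_inv_cancel]
      · rw [← e, e', ← ez, (cmi (by norm_num)).1 r, eu, ku]) with rfl | rfl | r
    · rw [ev_zero, conj_eq_one_iff] at e
      exact (F.z1 e).elim
    · rw [eu, ← ku] at e
      exact (F.u2_ne F.hu1 (by rw [F.u2_eq F.hu1, cj_inj' e, F.u11])).elim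
    rw [F.U0_eq]
    refine norm_gen fun x hx => ?_
    have hx : x ∈ F.U0 a b := F.U0_eq a b ▸ subset_closure hx
    obtain ⟨y, hy, e'⟩ := h.memT.1 (conj_mem_of_mem_normalizer hk (UT hx))
    obtain ⟨x, hx', rfl⟩ := h.memU.1 hx
    have := N1a.dC m c r y hy ((cmi (by norm_num)).2 (by
      have := h.okU.cm x 64
      rw [N1a.dz x hx', ev_zero, show ev (F.LU a b) 64 = F.z by simp [LU, ev]] at this
      rw [← e, ← e', ev_zero]
      calc _ = k * (ev (F.LU a b) x * F.z * (ev (F.LU a b) x)⁻¹ * F.z⁻¹) * k⁻¹ := by group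
        _ = 1 := by rw [← this, mul_one, mul_inv_cancel]))
    rw [e', show y = 2 * (y / 2) by omega, ev_bit0, ← F.U0_eq]
    exact F.evU a b _
  obtain ⟨c, hc, e⟩ := h.memU.1 (conj_mem_of_mem_normalizer kU (h.TU F.b2_tT))
  have o : F.Om (ev (F.LU a b) c) := ⟨k, e⟩
  obtain ⟨n, hn, en, hx⟩ := h.six hc (h.injU ((show 2 ^ PU.length = 128 by rw [h.okU.len]; simp [LU]) ▸ mu_lt PU c c) (by norm_num) (by
      rw [h.okU.mul, o.sq.1, ev_zero]))
    (by
      by_contra r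
      exact h.n00 (h.mem00.2 ⟨c / 2, by omega, by rw [show 2 * (c / 2) = c by omega]⟩) o)
    (fun r => nOm ok ker (c := 2 * c) (L := [62, 126, 190, 254])
      (fun g hg => N1a.dO m c hc r g (by simpa [LU] using hg))
      (by rw [F.TD1 d, F.card32]; simp [LU]) (by rwa [ev_bit0]))
  have ht : n⁻¹ * k * F.t = F.t * (n⁻¹ * k) := comm_of_cj (cj_inj' (g := n) (by rw [en, ← e]; group))
  have hT : n⁻¹ * k ∈ 𝐍(F.T) := norm_gen fun x hx => by
    have hx : x ∈ F.T := subset_closure hx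
    show _ ∈ F.T
    rw [← h.cenU] at hx ⊢
    refine ⟨conj_mem_of_mem_normalizer (mul_mem (inv_mem hn) kU) hx.1, mem_centralizer_singleton_iff.2 ?_⟩
    have := comm_cj (n⁻¹ * k) (mem_centralizer_singleton_iff.1 hx.2)
    rwa [cj_of_comm ht] at this
  have hu := cj_of_comm (F.fixu ht ((F.swu ht hT).resolve_right fun r => r.1 d).2.1)
  obtain ⟨x, hx, ex⟩ := hx (comm_of_cj (by
    calc _ = n * (n⁻¹ * k * F.u1 * (n⁻¹ * k)⁻¹) * n⁻¹ := by rw [hu]
      _ = k * F.u1 * k⁻¹ := by group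
      _ = _ := ku))
  exact ⟨x, hx, by rw [e, ex]⟩

end Fr

end H25.A6
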