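import Mathlib
import Cfsg.Agent.Lib.A6T.QA

/-! The involution `p`. -/

set_option autoImplicit false
set_option linter.unusedSectionVars false
set_option linter.unusedSimpArgs false
set_option linter.unusedVariables false

namespace H25.A6

open Subgroup H69 H36.SW

variable {G : Type*} [Group G] [Finite G]

namespace QB

theorem bo {x y r : G} (h : x * y = r) : x * y = r ∧ ∀ g, x * (y * g) = r * g :=
  ⟨h, fun g => by rw [← mul_assoc, h]⟩

/-- moving an involution to the left -/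
theorem mv {p x r : G} (pp : p * p = 1) (h : p * x * p = r) : x * p = p * r := by
  rw [← h, ← mul_assoc, ← mul_assoc, pp, one_mul]

theorem cjv {p x r : G} (pp : p * p = 1) (h : x * p = p * r) : p * x * p = r := by
  rw [mul_assoc, h, ← mul_assoc, pp, one_mul]

variable (F : Fr G)

theorem v21' : F.v2 * F.v1 = F.v1 * F.v2 * F.z := by
  rw [F.v21, ← mul_assoc, F.zv1, mul_assoc, F.B1zv2, mul_assoc]

theorem u2e : F.u2 = F.z * F.u1 := F.u2_eq F.hu1

theorem nes : F.u1 ≠ 1 ∧ F.z ≠ 1 ∧ F.v1 ≠ 1 ∧ F.z * F.u1 ≠ 1 ∧ F.v1 * F.z ≠ 1 ∧ F.v1 * F.u1 ≠ 1 ∧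
    F.v1 * (F.z * F.u1) ≠ 1 := by
  refine ⟨F.hu1, F.z1, F.b2_v1, fun e => ?_, fun e => ?_, fun e => ?_, fun e => ?_⟩
  · simpa using (F.ind (a := 0) (b := 0) (c := 0) (d := 1) (e := 1) (by simpa using e)).2.2.2.1
  · simpa using (F.ind (a := 0) (b := 1) (c := 0) (d := 1) (e := 0) (by simpa using e)).2.1
  · simpa using (F.ind (a := 0) (b := 1) (c := 0) (d := 0) (e := 1) (by simpa using e)).2.1
  · simpa using (F.ind (a := 0) (b := 1) (c := 0) (d := 1) (e := 1) (by simpa [mul_assoc] using e)).2.1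

theorem memX {x : G} (h : x ∈ F.X1) : x = 1 ∨ x = F.u1 ∨ x = F.z ∨ x = F.z * F.u1 ∨ x = F.v1 ∨ x = F.v1 * F.u1 ∨
    x = F.v1 * F.z ∨ x = F.v1 * (F.z * F.u1) := by
  obtain ⟨b, d, e, rfl⟩ := F.memX1.1 h
  fin_cases b <;> fin_cases d <;> fin_cases e <;> simp [mul_assoc]

/-- normal forms in `T` -/
scoped macro "gT " F:ident " [" ts:Lean.Parser.Tactic.simpLemma,* "]" l:(Lean.Parser.Tactic.location)? : tactic =>
  `(tactic| simp only [mul_assoc, one_mul, mul_one, map_mul, map_one, bo (Fr.tt $F), bo (Fr.zz $F), bo (Fr.v11 $F),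
    bo (Fr.v22 $F), bo (Fr.u11 $F), bo (Fr.tv1 $F).symm, bo (Fr.tv2 $F).symm, bo (Fr.zt $F), bo (Fr.tu1 $F).symm,
    bo (v21' $F), bo (Fr.zv1 $F), bo (Fr.u1v1 $F), bo (Fr.B1zv2 $F), bo (Fr.u1v2 $F), bo (Fr.zu1 $F).symm,
    u2e $F, $ts,*] $[$l]?)

variable {F} {a b : G}

theorem bu (h : F.TA a b) : F.u1 * b = b * F.u1 := by
  have := h.bu
  rw [u2e, ← mul_assoc, h.bz, mul_assoc, mul_assoc, mul_right_inj] at this
  exact this.symm

/-- normal forms in `⟨T, a, b⟩` -/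
scoped macro "gA " F:ident ", " h:ident " [" ts:Lean.Parser.Tactic.simpLemma,* "]" l:(Lean.Parser.Tactic.location)? : tactic =>
  `(tactic| gT $F [bo (Fr.TA.aa $h), bo (Fr.TA.bb $h), bo (mv (Fr.TA.aa $h) (Fr.TA.at' $h)), bo (Fr.TA.av $h).symm,
    bo (mv (Fr.TA.aa $h) (Fr.TA.av2 $h)), bo (Fr.TA.az $h).symm, bo (Fr.TA.au $h).symm,
    bo (mv (Fr.TA.bb $h) (Fr.TA.bt $h)), bo (mv (Fr.TA.bb $h) (Fr.TA.bv1 $h)), bo (Fr.TA.bv $h).symm,
    bo (Fr.TA.bz $h).symm, bo (bu $h), $ts,*] $[$l]?)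

theorem cW {g : G} (h1 : F.t * g = g * F.t) (h2 : F.z * g = g * F.z) (h3 : F.v1 * g = g * F.v1)
    (h4 : F.u1 * g = g * F.u1) : g ∈ 𝐂(F.W1) :=
  B2.cent_gen (by rintro _ (rfl | rfl | rfl | rfl) <;> assumption)

theorem tr (θ : G →* G) {q w r : G} (e : w * q = q * r) : θ w * θ q = θ q * θ r := by
  rw [← map_mul, e, map_mul]

theorem kapF (h : F.TA a b) : a * b * a * b ∈ F.F0 := by
  have c : a * b * a * b ∈ 𝐂(F.T) := by
    rw [F.T_eq]
    exact B2.cent_gen (by rintro _ (rfl | rfl | rfl | rfl) <;> gA F, h [])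
  have m : ∀ x ∈ ({F.t, F.v1, F.v2, F.u1, F.u2, a, b} : Set G), x ∈ Subgroup.closure ({F.t, F.v1, F.v2, F.u1, F.u2, a, b} : Set G) :=
      fun x hx => Subgroup.subset_closure hx
  have p : P2 (a * b * a * b) := (h.isP ⟨_, mul_mem (mul_mem (mul_mem (m a (by simp)) (m b (by simp)))
    (m a (by simp))) (m b (by simp))⟩).imp fun _ e => congrArg Subtype.val e
  have k := (F.cenT (F.p2T (c _ F.b2_tT).symm (centralizer_le_normalizer _ c)
    (centralizer_le_normalizer _ (centralizer_le F.W1T c)) p)).1 c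
  refine (F.memZT.1 k).resolve_right fun q => ?_
  have e1 : a * (a * b * a * b) * a = a * b * a * b := by
    refine Eq.trans ?_ (inv_eq_of_mul_eq_one_right (F.sqW1 (F.ZTW1 k)))
    rw [eq_inv_iff_mul_eq_one]
    gA F, h []
  have e2 : a * b * a * b = F.t * (F.t * (a * b * a * b)) := (F.b2_tt _).symm
  generalize F.t * (a * b * a * b) = y at q e2
  rw [e2, ← mul_inv_eq_one, inv_eq_of_mul_eq_one_right (F.sqW1 (e2 ▸ F.ZTW1 k))] at e1
  rcases F.memF0.1 q with rfl | rfl | rfl | rfl <;> (gA F, h [] at e1; exact F.hu1 e1)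

/-- the data of the core computation -/
structure Co (F : Fr G) (a b : G) (Q : Subgroup G) (θ : G →* G) : Prop extends F.TA a b where
  cq : ∀ q ∈ Q, q ∈ 𝐂(F.W1) → q ∈ F.W1
  tq : ∀ q ∈ Q, θ q ∈ Q
  aQ : a ∈ Q
  pQ : b * F.v2 ∈ Q
  θt : θ F.t = F.t
  θz : θ F.z = F.v1
  θv : θ F.v1 = F.z * F.v1
  θu : θ F.u1 = F.u1
  θ3 : ∀ q ∈ Q, θ (θ (θ q)) = q
  θν : ∀ q ∈ Q, θ (F.v2 * θ (F.v2 * q * F.v2) * F.v2) = q

theorem co {Q : Subgroup G} {η : G} (h : F.TQ a b Q η) : Co F a b Q (MulAut.conj η).toMonoidHom where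
  toTA := h.toTA
  cq q hq c := F.p2W1 c ((h.Q2 ⟨q, hq⟩).imp fun _ e => congrArg Subtype.val e)
  tq q hq := (mem_normalizer_iff.1 h.ηQ q).1 hq
  aQ := h.aQ
  pQ := h.pQ
  θt := (h.hη _ F.b2_tW).trans (B2.cj_of_comm F.y1t)
  θz := (h.hη _ (F.X1W1 F.b2_zX)).trans F.y1z
  θv := (h.hη _ F.b2_vW).trans F.y1v
  θu := (h.hη _ (F.X1W1 F.b2_uX)).trans (B2.cj_of_comm F.y1u)
  θ3 q hq := by
    rw [← B2.cj_of_comm (h.η3 q hq).symm]
    conv_lhs => rw [B2.cj_of_comm (h.η3 q hq).symm]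
    change η * (η * (η * q * η⁻¹) * η⁻¹) * η⁻¹ = _
    group
  θν q hq := by
    rw [← B2.cj_of_comm (h.ηv q hq).symm]
    conv_lhs => rw [B2.cj_of_comm (h.ηv q hq).symm]
    change η * (F.v2 * (η * (F.v2 * q * F.v2) * η⁻¹) * F.v2) * η⁻¹ = _
    simp only [mul_inv_rev, F.b2_v2i, mul_assoc]

variable {Q : Subgroup G} {θ : G →* G}

theorem Co.fix (h : Co F a b Q θ) : ∃ x, (x = 1 ∨ x = F.z) ∧ θ (a * x) = a * x := by
  have k := h.toTA
  have aa : θ a * θ a = 1 := by rw [← map_mul, k.aa, map_one]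
  have r1 := tr θ (mv k.aa k.at')
  have r2 := tr θ k.av.symm
  have r3 := tr θ k.az.symm
  have r4 := tr θ k.au.symm
  simp only [map_mul, h.θt, h.θz, h.θv, h.θu] at r1 r2 r3 r4
  have r5 : F.z * θ a = θ a * F.z := by
    rw [mul_assoc, r3, ← mul_assoc, ← mul_assoc, mul_left_inj] at r2; exact r2
  have m : a * θ a ∈ F.W1 := h.cq _ (mul_mem h.aQ (h.tq _ h.aQ))
    (cW (by gA F, k [bo r1, bo r4]) (by gA F, k [bo r5]) (by gA F, k [bo r3]) (by gA F, k [bo r4]))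
  obtain ⟨x, e⟩ : ∃ x, θ a = a * x := ⟨a * θ a, by gA F, k []⟩
  have e1 := h.θ3 a h.aQ
  have e2 := h.θν a h.aQ
  rw [e, ← mul_assoc, k.aa, one_mul] at m
  rw [e] at aa
  have mx : x ∈ F.X1 := by
    refine (F.memW1'.1 m).resolve_right fun q => ?_
    rw [← F.b2_tt x] at aa
    generalize F.t * x = y at q aa
    rcases memX F q with rfl | rfl | rfl | rfl | rfl | rfl | rfl | rfl <;> (gA F, k [] at aa; exact F.hu1 aa)
  replace e1 : a * θ (θ (θ a)) = 1 := by rw [e1, k.aa]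
  replace e2 : a * θ (F.v2 * θ (F.v2 * a * F.v2) * F.v2) = 1 := by rw [e2, k.aa]
  rw [show F.v2 * a * F.v2 = a * F.u1 by gA F, k [], map_mul θ a, e, h.θu,
    show F.v2 * (a * x * F.u1) * F.v2 = a * (F.v2 * x * F.v2) by gA F, k [bo (F.b2_WC m _ (F.X1W1 F.b2_uX)).symm]] at e2
  have n := nes F
  rcases memX F mx with rfl | rfl | rfl | rfl | rfl | rfl | rfl | rfl
  · exact ⟨1, Or.inl rfl, by rw [mul_one, e, mul_one]⟩
  · gA F, k [e, h.θz, h.θv, h.θu] at e1; exact absurd e1 n.1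
  · gA F, k [e, h.θz, h.θv, h.θu] at e2; exact absurd e2 n.2.2.2.2.1
  · gA F, k [e, h.θz, h.θv, h.θu] at e1; exact absurd e1 n.1
  · rw [show F.v2 * F.v1 * F.v2 = F.v1 * F.z by gT F []] at e2
    gA F, k [e, h.θz, h.θv, h.θu] at e2; exact absurd e2 n.2.2.2.2.1
  · gA F, k [e, h.θz, h.θv, h.θu] at e1; exact absurd e1 n.1
  · exact ⟨F.z, Or.inr rfl, by gA F, k [e, h.θz]⟩
  · gA F, k [e, h.θz, h.θv, h.θu] at e1; exact absurd e1 n.1

/-- the relations of `p0`, `p1`, `p2` -/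
structure Pp (F : Fr G) (θ : G →* G) (p0 p1 p2 um : G) : Prop where
  e1 : θ p0 = p1
  e2 : θ p1 = p2
  s0 : p0 * p0 = 1
  s1 : p1 * p1 = 1
  s2 : p2 * p2 = 1
  t1 : F.t * p1 = p1 * (F.t * F.v1 * F.u1)
  z1 : F.z * p1 = p1 * (F.z * F.u1)
  v1 : F.v1 * p1 = p1 * F.v1
  u0 : F.u1 * p0 = p0 * F.u1
  u1 : F.u1 * p1 = p1 * F.u1
  u2 : F.u1 * p2 = p2 * F.u1
  hm : um = 1 ∨ um = F.u1
  w : p0 * p1 * p2 = um

theorem Co.pp (h : Co F a b Q θ) : ∃ p1 p2 um, Pp F θ (b * F.v2) p1 p2 um := by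
  have k := h.toTA
  have s0 : b * F.v2 * (b * F.v2) = 1 := by gA F, k []
  have t0 : F.t * (b * F.v2) = b * F.v2 * (F.t * F.z * F.u1) := by gA F, k []
  have z0 : F.z * (b * F.v2) = b * F.v2 * F.z := by gA F, k []
  have v0 : F.v1 * (b * F.v2) = b * F.v2 * (F.v1 * F.u1) := by gA F, k []
  have u0 : F.u1 * (b * F.v2) = b * F.v2 * F.u1 := by gA F, k []
  have q0 := h.pQ
  have e3 := h.θ3 _ q0
  generalize b * F.v2 = p0 at s0 t0 z0 v0 u0 q0 e3 ⊢
  have q1 := h.tq _ q0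
  have s1 : θ p0 * θ p0 = 1 := by rw [← map_mul, s0, map_one]
  have t1 := tr θ t0
  have v1 := tr θ z0
  have z1' := tr θ v0
  have u1 := tr θ u0
  simp only [map_mul, h.θt, h.θz, h.θv, h.θu] at t1 v1 z1' u1
  generalize e1 : θ p0 = p1 at *
  have z1 : F.z * p1 = p1 * (F.z * F.u1) := by
    apply mul_right_cancel (b := F.v1)
    rw [mul_assoc, ← v1, ← mul_assoc, z1']; gT F []
  have q2 := h.tq _ q1
  have s2 : θ p1 * θ p1 = 1 := by rw [← map_mul, s1, map_one]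
  have t2 := tr θ t1
  have v2 := tr θ z1
  have z2' := tr θ v1
  have u2 := tr θ u1
  simp only [map_mul, h.θt, h.θz, h.θv, h.θu] at t2 v2 z2' u2
  generalize e2 : θ p1 = p2 at *
  have z2 : F.z * p2 = p2 * (F.z * F.u1) := by
    have : F.z * p2 = F.v1 * (F.z * F.v1 * p2) := by gT F []
    rw [this, z2', ← mul_assoc, v2]; gT F []
  have m : p0 * p1 * p2 ∈ F.W1 := h.cq _ (mul_mem (mul_mem q0 q1) q2) (by
    apply cW <;> gT F [bo t0, bo z0, bo v0, bo u0, bo t1, bo z1, bo v1, bo u1, bo t2, bo z2, bo v2, bo u2])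
  generalize e : p0 * p1 * p2 = w at m
  have e4 : p0 * p1 = w * p2 := by rw [← e, mul_assoc, s2, mul_one]
  have e5 : p1 * (w * p2 * (w * p2)) * p1 * (w * p2 * (w * p2)) = 1 := by rw [← e4]; gT F [bo s0, bo s1]
  have e6 : θ w * (p0 * w * p0) * (w * w) = w * w := by
    rw [mul_eq_right, ← e, map_mul, map_mul, e1, e2, e3, e, ← inv_eq_iff_mul_eq_one]
    have : p0 * w * p0 = (p0 * w * p0)⁻¹ := eq_inv_of_mul_eq_one_left (by gT F [bo s0, bo (F.sqW1 m)])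
    rw [this, ← e]; gT F [bo s0]
  rw [F.sqW1 m, mul_one] at e6
  have n := nes F
  have mx : w ∈ F.X1 := by
    refine (F.memW1'.1 m).resolve_right fun q => ?_
    rw [← F.b2_tt w] at e5
    generalize F.t * w = y at q e5
    rw [show ∀ x, p1 * (x * p2 * (x * p2)) * p1 * (x * p2 * (x * p2)) =
      p1 * (x * (p2 * x * p2)) * p1 * (x * (p2 * x * p2)) from fun x => by simp only [mul_assoc]] at e5
    rcases memX F q with rfl | rfl | rfl | rfl | rfl | rfl | rfl | rfl <;>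
      (gT F [bo s1, bo s2, bo t1, bo z1, bo v1, bo u1, bo t2, bo z2, bo v2, bo u2] at e5; exact F.hu1 e5)
  refine ⟨p1, p2, w, e1, e2, s0, s1, s2, t1, z1, v1, u0, u1, u2, ?_, e⟩
  rcases memX F mx with rfl | rfl | rfl | rfl | rfl | rfl | rfl | rfl
  · exact Or.inl rfl
  · exact Or.inr rfl
  all_goals (gT F [bo s0, bo z0, bo v0, bo u0, h.θz, h.θv, h.θu] at e6; simp only [n] at e6)

theorem Co.kap (h : Co F a b Q θ) (θa : θ a = a) : a * b * a * b = F.z ∨ a * b * a * b = F.u1 := by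
  have k := h.toTA
  obtain ⟨p1, p2, um, P⟩ := h.pp
  have key : ∀ s, θ s = s → F.u1 * s = s * F.u1 → s * (b * F.v2) = b * F.v2 * (s * F.u1) → False := by
    intro s e1 e2 e3
    have e4 := tr θ e3
    rw [map_mul θ s, e1, P.e1, h.θu] at e4
    have e5 := tr θ e4
    rw [map_mul θ s, e1, P.e2, h.θu] at e5
    have e6 : s * um = um * (s * F.u1) := by
      rw [← P.w]
      generalize b * F.v2 = p0 at e3 P
      gT F [bo e3, bo e4, bo e5, bo e2, bo P.u0, bo P.u1, bo P.u2]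
    rcases P.hm with rfl | rfl
    · exact F.hu1 (by simpa using e6)
    · rw [← e2, mul_right_inj] at e6
      exact F.hu1 (by simpa using e6)
  have ba : b * a = a * b * (a * b * a * b) := by
    have := F.sqW1 (F.X1W1 (F.F0X1 (kapF k)))
    rw [← inv_eq_of_mul_eq_one_right this, eq_mul_inv_iff_mul_eq]; gA F, k []
  rcases F.memF0.1 (kapF k) with e | e | e | e
  · rw [e] at ba
    exact (key a θa k.au.symm (by gA F, k [bo ba])).elim
  · exact Or.inl e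
  · exact Or.inr e
  · rw [e] at ba
    exact (key (a * F.t) (by rw [map_mul, θa, h.θt]) (by gA F, k []) (by gA F, k [bo ba])).elim

end QB

open QB

namespace Fr
variable {F : Fr G} {a b p q um um' η η' π : G}

theorem TA.mulz (h : F.TA a b) {x y : G} (hx : x = 1 ∨ x = F.z) (hy : y = 1 ∨ y = F.z) :
    F.TA (a * x) (b * y) := by
  refine ⟨h.ca, h.nx1, h.nx2, ?_, ?_, ?_, ?_, ?_, ?_, ?_, ?_, ?_, ?_, ?_, ?_, h.isP.to_le ?_⟩
  rotate_right
  · have m : ∀ x ∈ ({F.t, F.v1, F.v2, F.u1, F.u2, a, b} : Set G), x ∈ Subgroup.closure ({F.t, F.v1, F.v2, F.u1, F.u2, a, b} : Set G) :=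
      fun x hx => Subgroup.subset_closure hx
    have mz := F.B1z (m F.v1 (by simp)) (m F.v2 (by simp))
    rw [closure_le]
    rintro _ (rfl | rfl | rfl | rfl | rfl | rfl | rfl)
    iterate 5 exact m _ (by simp)
    · exact mul_mem (m a (by simp)) (by rcases hx with rfl | rfl; exacts [one_mem _, mz])
    · exact mul_mem (m b (by simp)) (by rcases hy with rfl | rfl; exacts [one_mem _, mz])
  all_goals (rcases hx with rfl | rfl <;> rcases hy with rfl | rfl <;> gA F, h [])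

theorem QB_ex (h : F.TA a b) : ∃ x Q η, (x = 1 ∨ x = F.z) ∧ F.TQ (a * x) b Q η ∧ η * (a * x) * η⁻¹ = a * x ∧
    a * x * b * (a * x) * b = a * b * a * b := by
  obtain ⟨Q, η, k⟩ := h.exQ
  obtain ⟨x, hx, e⟩ := (co k).fix
  refine ⟨x, Q, η, hx, ⟨by simpa using h.mulz hx (Or.inl rfl), k.Q2, k.QN, k.WQ, mul_mem k.aQ (k.WQ ?_), k.pQ, k.ηQ,
    k.vQ, k.hη, k.η3, k.ηv⟩, e, ?_⟩
  · rcases hx with rfl | rfl
    exacts [one_mem _, F.X1W1 F.b2_zX]
  · rcases hx with rfl | rfl <;> gA F, h []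

theorem TA.kap1 (h : F.TA a b) : a * b * a * b = F.z ∨ a * b * a * b = F.u1 := by
  obtain ⟨x, Q, η, -, k, e, e'⟩ := QB_ex h
  exact e' ▸ (co k).kap e

theorem TA.kap (h : F.TA a b) : a * b * a * b = F.z := by
  refine h.kap1.resolve_right fun e => ?_
  have e1 : b * a * b * a = F.u1 := by
    rw [← inv_eq_of_mul_eq_one_right F.u11, ← e, eq_inv_iff_mul_eq_one]; gA F, h []
  rcases h.sw.kap1 with q | q
  · exact (nes F).2.2.2.1 (by rw [← e1, q]; exact F.zz)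
  · exact F.z1 (mul_eq_right.1 ((u2e F).symm.trans (q.symm.trans e1)))

theorem TA.exP (h : F.TA a b) : ∃ x, (x = 1 ∨ x = F.z) ∧ ∃ p um η, F.TP (a * x) b p um η := by
  obtain ⟨x, Q, η, hx, k, e, -⟩ := QB_ex h
  refine ⟨x, hx, ?_⟩
  generalize a * x = a at k e
  have c := co k
  have h := k.toTA
  obtain ⟨p, p2, um, P⟩ := c.pp
  have ba : b * a = a * b * F.z := by
    rw [← inv_eq_of_mul_eq_one_right F.zz, ← h.kap, eq_mul_inv_iff_mul_eq]; gA F, h []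
  have uu : um * um = 1 := by rcases P.hm with rfl | rfl; exacts [one_mul _, F.u11]
  have c2 : um * p2 = p2 * um := by rcases P.hm with rfl | rfl; exacts [by simp, P.u2]
  have c1 : um * p = p * um := by rcases P.hm with rfl | rfl; exacts [by simp, P.u1]
  have cv : um * F.v2 = F.v2 * um := by rcases P.hm with rfl | rfl; exacts [by simp, F.u1v2]
  have e1 : b * F.v2 * p = p2 * um := by rw [← c2, ← P.w, mul_assoc _ p2, P.s2, mul_one]
  have e2 : p2 = b * F.v2 * p * um := by rw [e1, mul_assoc, uu, mul_one]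
  have e3 : b * F.v2 * p = p * (b * F.v2) := by
    have : b * F.v2 * p * (b * F.v2 * p) = 1 := by rw [e1]; gT F [bo c2, bo uu, bo P.s2]
    rw [← inv_eq_of_mul_eq_one_right this, mul_inv_rev, inv_eq_of_mul_eq_one_right P.s1,
      inv_eq_of_mul_eq_one_right P.s0]
  have e4 : F.v2 * p * F.v2 = p2 := by
    have := c.θν _ k.pQ
    rw [show F.v2 * (b * F.v2) * F.v2 = b * F.v2 by gA F, h [], P.e1, ← c.θ3 _ k.pQ, P.e1, P.e2] at this
    exact (MulAut.conj η).injective this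
  have e5 : p * F.v2 * p = b * um := by
    refine cjv P.s1 (mul_right_cancel (b := F.v2) ?_)
    rw [e4, e2, e3]; gT F [bo cv]
  have e6 := tr (MulAut.conj η).toMonoidHom
    (show a * (b * F.v2) = b * F.v2 * (a * F.z * F.u1) by gA F, h [bo ba])
  rw [map_mul _ (a * F.z), map_mul _ a, P.e1, c.θz, c.θu, show (MulAut.conj η).toMonoidHom a = a from e] at e6
  refine ⟨p, um, η, h, h.kap, P.hm, P.s1, cjv P.s1 P.t1, cjv P.s1 P.v1, e5, cjv P.s1 e6, ?_, cjv P.s1 P.u1,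
    cjv P.s1 P.z1, k.hη, B2.comm_of_cj e, P.e1, P.e2.trans e2⟩
  rw [show b = p * F.v2 * p * um by rw [e5, mul_assoc, uu, mul_one]]
  gT F [bo P.s1, bo c1]

theorem TP.adj (h : F.TP a b p um η) : F.TP a (b * F.z) (p * F.v1) (um * F.u1) η := by
  have k := h.toTA
  have r1 := bo (mv h.pp h.pt)
  have r2 := bo (mv h.pp h.pv1)
  have r3 := bo (mv h.pp h.pv2)
  have r4 := bo (mv h.pp h.pa)
  have r5 := bo (mv h.pp h.pb)
  have r6 := bo (mv h.pp h.pu)
  have r7 := bo (mv h.pp h.pz)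
  have r0 := bo h.pp
  have ez := (h.hη _ (F.X1W1 F.b2_zX)).trans F.y1z
  have ev := (h.hη _ F.b2_vW).trans F.y1v
  refine ⟨by simpa using k.mulz (Or.inl rfl) (Or.inr rfl), Eq.trans (by gA F, k []) h.ab, ?_, ?_, ?_, ?_, ?_, ?_, ?_, ?_, ?_,
    h.hη, h.ηa, ?_, ?_⟩
  · rcases h.hm with rfl | rfl
    exacts [Or.inr (one_mul _), Or.inl F.u11]
  rotate_right 2
  · rw [show b * F.z * F.v2 = b * F.v2 * F.z by gT F [], B2.cj_mul, h.ηp, ez]
  · rw [B2.cj_mul, h.ηq, ev]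
    rcases h.hm with rfl | rfl <;> gA F, k [r0, r1, r2, r3, r4, r5, r6, r7]
  all_goals (rcases h.hm with rfl | rfl <;> gA F, k [r0, r1, r2, r3, r4, r5, r6, r7])

theorem TA.exB (h : F.TA a b) : ∃ a b p q um um' η η', F.TB a b p q um um' η η' := by
  obtain ⟨x, -, p, um, η, k⟩ := h.exP
  obtain ⟨y, rfl | rfl, q, um', η', k'⟩ := k.toTA.sw.exP
  · exact ⟨_, _, _, _, _, _, _, _, k, by simpa using k'⟩
  · exact ⟨_, _, _, _, _, _, _, _, k.adj, k'⟩

theorem TA.exD (h : F.TA a b) (d : F.dl * a * F.dl⁻¹ = b) :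
    ∃ a b p um η, F.TP a b p um η ∧ F.dl * a * F.dl⁻¹ = b := by
  obtain ⟨x, rfl | rfl, p, um, η, k⟩ := h.exP
  · exact ⟨_, _, _, _, _, k, by rw [mul_one, d]⟩
  · exact ⟨_, _, _, _, _, k.adj, by rw [B2.cj_mul, d, F.dlz]⟩

end Fr

end H25.A6
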