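import Mathlib
import Cfsg.Agent.Lib.A6T.OmB

/-! `dl ≠ 1`: the cube of `q p`. -/

set_option autoImplicit false
set_option maxRecDepth 100000

namespace H25.A6

open Subgroup H69 H36.SW H80.PC

variable {G : Type*} [Group G] [Finite G]

namespace SA1

theorem d1 : ∀ e m : Bool, ∀ c < 128,
    act PU (imQ e m) (act PU (imP m) (act PU (imQ e m) (act PU (imP m) (act PU (imQ e m) (act PU (imP m) c))))) =
      cj PU (cond e (cond m 0 63) (cond m 0 31)) c := by decide +kernel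

theorem d2 : ∀ e m : Bool, ∀ c < 128, (∀ g ∈ [1, 2, 4, 8, 16], mu PU c g = mu PU g c) →
    act PU (imQ e m) (act PU (imP m) (mu PU (cond e (cond m 0 63) (cond m 0 31)) c)) =
      mu PU (cond e (cond m 0 63) (cond m 0 31)) c → c = 0 := by decide +kernel

theorem d3 : ∀ e m : Bool, mu PU (mu PU (act PU (imQ e m) (cond e 1 0))
    (act PU (imQ e m) (act PU (imP m) (iv PU (cond e 1 0))))) (cond e (cond m 0 63) (cond m 0 31)) =
      cond e (cond m 8 87) (cond m 0 31) := by decide +kernel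

theorem act_lt (P : List Lv) : ∀ (im : List ℕ) (a : ℕ), act P im a < 2 ^ P.length
  | [], _ => Nat.two_pow_pos _
  | c :: im, a => by
    rw [act_cons]
    split_ifs
    exacts [mu_lt _ _ _, act_lt P im _]

end SA1

namespace Fr
variable {F : Fr G} {a b p q um η π : G}

theorem TP.cube (h : F.TP a b p um η) (d : F.dl ≠ 1) (db : F.dl * a * F.dl⁻¹ = b) {e m : Bool}
    (he : F.dl * F.dl = cond e F.t 1) (hm : um = cond m F.u1 1)
    (hπ : π = p * (F.dl * p * F.dl⁻¹) * p) : ∃ o ∈ 𝐂(F.U0 a b), Odd (orderOf o) ∧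
      F.dl * π * F.dl⁻¹ * π = ev (F.LU a b) (cond e (cond m 8 87) (cond m 0 31)) * o := by
  have iq := h.imq d db he hm
  have aq := h.okU.conj iq
  have ap := h.actp hm
  have nq := h.nU iq
  have np := h.nU (h.imp hm)
  have t2 : F.dl * F.dl = ev (F.LU a b) (cond e 1 0) := by rw [he]; cases e <;> simp [LU, ev]
  have hc : F.dl * π * F.dl⁻¹ * π = (F.dl * p * F.dl⁻¹) * (F.dl * F.dl) * (F.dl * p * F.dl⁻¹)⁻¹ *
      ((F.dl * p * F.dl⁻¹) * (p * (F.dl * F.dl)⁻¹ * p⁻¹) * (F.dl * p * F.dl⁻¹)⁻¹) *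
      ((F.dl * p * F.dl⁻¹) * p * ((F.dl * p * F.dl⁻¹) * p) * ((F.dl * p * F.dl⁻¹) * p)) := by
    rw [hπ]; group
  generalize F.dl * p * F.dl⁻¹ = q at aq nq hc
  have aρ : ∀ c, q * p * ev (F.LU a b) c * (q * p)⁻¹ = ev (F.LU a b) (act PU (imQ e m) (act PU (imP m) c)) :=
    fun c => by rw [← aq, ← ap]; group
  have nρ := mul_mem nq np
  generalize hρ : q * p = ρ at aρ nρ hc
  generalize hy : cond e (cond m 0 63) (cond m 0 31) = y
  have gC : (ev (F.LU a b) y)⁻¹ * (ρ * ρ * ρ) ∈ 𝐂(F.U0 a b) := by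
    refine mem_centralizer_iff.2 fun x hx => ?_
    obtain ⟨c, hc, rfl⟩ := h.memU.1 hx
    have e1 := congrArg (ev (F.LU a b)) (SA1.d1 e m c hc)
    rw [← aρ, ← aρ, ← aρ, hy, h.okU.cj] at e1
    calc _ = (ev (F.LU a b) y)⁻¹ * (ev (F.LU a b) y * ev (F.LU a b) c * (ev (F.LU a b) y)⁻¹) * (ρ * ρ * ρ) := by
          group
      _ = _ := by rw [← e1]; group
  obtain ⟨O, hO, nO, dec⟩ := F.exOP h.isPU h.TU h.cenU.le
  obtain ⟨τ, hτ, o, ho, eg⟩ := dec _ (centralizer_le_normalizer _ gC)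
    (mem_centralizer_iff.1 gC _ (h.TU F.b2_tT)).symm
    (centralizer_le_normalizer _ (centralizer_le (show (F.W1 : Set G) ⊆ F.U0 a b from F.W1T.trans h.TU) gC))
  obtain ⟨oC, oo⟩ := (hO o).1 ho
  have τC : τ ∈ 𝐂(F.U0 a b) := by
    rw [eq_mul_inv_of_mul_eq eg.symm]; exact mul_mem gC (inv_mem oC)
  obtain ⟨c, hc', rfl⟩ := h.memU.1 (h.TU hτ)
  have e3 : ρ * ρ * ρ = ev (F.LU a b) (mu PU y c) * o := by
    rw [h.okU.mul, mul_assoc _ _ o, ← eg, mul_inv_cancel_left]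
  have lt : ∀ x y, mu PU x y < 128 := fun x y => mu_lt PU x y
  have fx : ρ * ev (F.LU a b) (mu PU y c) * ρ⁻¹ = ev (F.LU a b) (mu PU y c) := by
    have wU := F.evU a b (mu PU y c)
    generalize ev (F.LU a b) (mu PU y c) = w at e3 wU
    have e4 : w⁻¹ * (ρ * w * ρ⁻¹) = o * (ρ * o * ρ⁻¹)⁻¹ := by
      calc _ = w⁻¹ * (ρ * (w * o) * ρ⁻¹) * (ρ * o * ρ⁻¹)⁻¹ := by group
        _ = w⁻¹ * (w * o) * (ρ * o * ρ⁻¹)⁻¹ := by rw [← e3]; group
        _ = _ := by group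
    have m1 : w⁻¹ * (ρ * w * ρ⁻¹) ∈ F.U0 a b := mul_mem (inv_mem wU) (conj_mem_of_mem_normalizer nρ wU)
    have m2 : w⁻¹ * (ρ * w * ρ⁻¹) ∈ O := e4 ▸ mul_mem ho (inv_mem (conj_mem_of_mem_normalizer (nO nρ) ho))
    obtain ⟨k, hk⟩ := h.isPU ⟨_, m1⟩
    have hk' : (w⁻¹ * (ρ * w * ρ⁻¹)) ^ 2 ^ k = 1 := congrArg Subtype.val hk
    have o1 := ((hO _).1 m2).2
    have : orderOf (w⁻¹ * (ρ * w * ρ⁻¹)) = 1 :=
      Nat.Coprime.eq_one_of_dvd (Nat.Coprime.pow_right k (Nat.coprime_two_right.2 o1)) (orderOf_dvd_of_pow_eq_one hk')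
    rw [orderOf_eq_one_iff, inv_mul_eq_one] at this
    exact this.symm
  have c0 : c = 0 := by
    refine SA1.d2 e m c hc' (fun g _ => h.injU (lt _ _) (lt _ _) ?_) ?_
    · rw [h.okU.mul, h.okU.mul]
      exact (mem_centralizer_iff.1 τC _ (F.evU a b g)).symm
    · rw [hy]
      rw [aρ] at fx
      exact h.injU (SA1.act_lt PU _ _) (lt _ _) fx
  subst c0
  refine ⟨o, oC, oo, ?_⟩
  rw [hc, e3, t2, ← h.okU.inv, ap, aq, aq, ← SA1.d3 e m, hy, h.okU.mul, h.okU.mul, h.okU.mul, ev_zero, mul_one,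
    mul_assoc _ _ o]

end Fr

end H25.A6
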