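import Mathlib
import Cfsg.Agent.Lib.A7S.Gen
import Cfsg.Agent.Lib.A6T.SB1
import Cfsg.Agent.Lib.A6T.OmB

/-! `dl ≠ 1`: the Sylow 2-subgroup. -/

set_option autoImplicit false
set_option maxRecDepth 100000
set_option linter.unusedSectionVars false

namespace H25.A6

open Subgroup H69 H36.SW H80.PC B2

variable {G : Type*} [Group G] [Finite G]

theorem sb2_1 : ∀ e m : Bool, ∀ c < 512, (∀ g ∈ [1, 2, 4, 8, 16, 32, 64], cm (PS e m) g c = 0) →
    c = 0 ∨ c = 256 := by decide +kernel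

theorem sb2_2 : ∀ e m : Bool, ∀ c < 512, cm (PS e m) c 256 = 0 ∧
    (cm (PS e m) c 128 = 0 ∨ cm (PS e m) c 128 = 256) := by decide +kernel

theorem sb2_3 : ∀ e m : Bool, ∀ c < 512, mu (PS e m) c c = 0 →
    (∀ g ∈ [1, 2, 4, 8, 16, 32, 64], cm (PS e m) g c = 0 ∨ cm (PS e m) g c = 256) →
    c = 0 ∨ c = 128 ∨ c = 256 ∨ c = 384 := by decide +kernel

theorem sb2_4 : ∀ e m : Bool, ∀ c < 512, cm (PS e m) c 128 = 0 → c % 4 = 0 ∨ c % 4 = 3 := by decide +kernel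

theorem sb2_5 : ∀ e m : Bool, ∀ c < 128, mu PU c c = 0 → c % 2 = 1 → c % 32 ≠ 31 →
    cj (PS e m) (lk (wS e m) (4 * c)) 4 = 4 * c ∨ cj (PS e m) (lk (wS e m) (4 * c)) 12 = 4 * c := by
  decide +kernel

theorem sb2_6 : ∀ e m : Bool, ∀ c < 512, cm (PS e m) c 12 = 0 → cm (PS e m) c 128 = 0 := by decide +kernel

theorem sb2_len (e m : Bool) : 2 ^ (PS e m).length = 512 := by
  simp [PS, PM, PU, PU0, PU1, PU2, PU3, PU4, PU5, PU6]

omit [Finite G] in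
theorem sb2_cm {x y : G} : x * y * x⁻¹ * y⁻¹ = 1 ↔ x * y = y * x := by
  rw [mul_inv_eq_one, mul_inv_eq_iff_eq_mul]

namespace Fr
variable {F : Fr G} {a b p q um η π : G}

theorem sb2_ev (F : Fr G) (a b π : G) : ev (F.LS a b π) 4 = F.t ∧ ev (F.LS a b π) 128 = F.u1 ∧
    ev (F.LS a b π) 256 = F.z ∧ ev (F.LS a b π) 384 = F.u1 * F.z := by
  simp [LS, LU, ev]

theorem sb2_mem (F : Fr G) (a b π : G) (c : ℕ) : ev (F.LS a b π) c ∈ F.SS a b π :=
  F.SS_eq a b π ▸ ev_mem (fun _ hx => subset_closure hx) c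

/-- the normaliser of `S` fixes `z` -/
theorem TS.sb2_z (h : F.TS a b p um η π) {k : G} (hk : k ∈ 𝐍(F.SS a b π)) : k * F.z * k⁻¹ = F.z := by
  obtain ⟨e, he⟩ := F.exe h.d1
  obtain ⟨m, hm⟩ := h.exm
  have ok := h.okS he hm
  obtain ⟨-, -, ez, -⟩ := F.sb2_ev a b π
  have zc : ∀ y ∈ F.SS a b π, y * F.z = F.z * y := fun y hy => by
    obtain ⟨c, hc, rfl⟩ := h.memS.1 hy
    rw [← sb2_cm, ← ez, ← ok.cm, (sb2_2 e m c hc).1, ev_zero]
  obtain ⟨c, hc, ec⟩ := h.memS.1 ((mem_normalizer_iff.1 hk _).1 (ez ▸ F.sb2_mem a b π 256))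
  rcases sb2_1 e m c hc (fun g _ => h.injS (sb2_len e m ▸ cm_lt _ _ _) (by norm_num) (by
      have y := zc _ ((mem_normalizer_iff''.1 hk _).1 (F.sb2_mem a b π g))
      rw [ok.cm, ev_zero, ← ec, sb2_cm]
      calc _ = k * (k⁻¹ * ev (F.LS a b π) g * k * F.z) * k⁻¹ := by group
        _ = _ := by rw [y]; group)) with rfl | rfl
  · exact absurd (by rwa [ev_zero, mul_inv_eq_one, mul_eq_left] at ec) F.z1
  · rw [ec, ez]

/-- the normaliser of `S` moves `u` inside `u⟨z⟩` -/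
theorem TS.sb2_u (h : F.TS a b p um η π) {k : G} (hk : k ∈ 𝐍(F.SS a b π)) :
    k * F.u1 * k⁻¹ = F.u1 ∨ k * F.u1 * k⁻¹ = F.u1 * F.z := by
  obtain ⟨e, he⟩ := F.exe h.d1
  obtain ⟨m, hm⟩ := h.exm
  have ok := h.okS he hm
  obtain ⟨-, eu, ez, euz⟩ := F.sb2_ev a b π
  have kz := h.sb2_z hk
  have uc : ∀ y ∈ F.SS a b π, y * F.u1 * y⁻¹ * F.u1⁻¹ = 1 ∨ y * F.u1 * y⁻¹ * F.u1⁻¹ = F.z := fun y hy => by
    obtain ⟨c, hc, rfl⟩ := h.memS.1 hy
    rw [← eu, ← ok.cm]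
    exact (sb2_2 e m c hc).2.imp (fun r => by rw [r, ev_zero]) fun r => by rw [r, ez]
  obtain ⟨c, hc, ec⟩ := h.memS.1 ((mem_normalizer_iff.1 hk _).1 (eu ▸ F.sb2_mem a b π 128))
  have sq : mu (PS e m) c c = 0 := h.injS (sb2_len e m ▸ mu_lt _ _ _) (by norm_num) (by
    rw [ok.mul, ev_zero, ← ec, ← cj_mul, F.u11, mul_one, mul_inv_cancel])
  rcases sb2_3 e m c hc sq (fun g _ => by
      have y := uc _ ((mem_normalizer_iff''.1 hk _).1 (F.sb2_mem a b π g))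
      have r : ev (F.LS a b π) (cm (PS e m) g c) =
          k * (k⁻¹ * ev (F.LS a b π) g * k * F.u1 * (k⁻¹ * ev (F.LS a b π) g * k)⁻¹ * F.u1⁻¹) * k⁻¹ := by
        rw [ok.cm, ← ec]; group
      have l : cm (PS e m) g c < 512 := sb2_len e m ▸ cm_lt _ _ _
      exact y.imp (fun y => h.injS l (by norm_num) (by rw [r, y, ev_zero, mul_one, mul_inv_cancel]))
        fun y => h.injS l (by norm_num) (by rw [r, y, kz, ez])) with rfl | rfl | rfl | rfl
  · exact absurd (by rwa [ev_zero, mul_inv_eq_one, mul_eq_left] at ec) F.hu1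
  · exact .inl (ec.trans eu)
  · rw [ez, ← kz] at ec
    refine absurd ?_ (F.u2_ne F.hu1)
    rw [F.u2e, cj_inj' ec, F.zz]
  · exact .inr (ec.trans euz)

/-- commuting with `u` is invariant -/
theorem TS.sb2_c (h : F.TS a b p um η π) {k x : G} (hk : k ∈ 𝐍(F.SS a b π)) (xz : x * F.z = F.z * x) :
    k * x * k⁻¹ * F.u1 = F.u1 * (k * x * k⁻¹) ↔ x * F.u1 = F.u1 * x := by
  have kz := h.sb2_z hk
  have cz : Commute (k * x * k⁻¹) F.z := by
    have := comm_cj k xz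
    rwa [kz] at this
  have e : k * x * k⁻¹ * (k * F.u1 * k⁻¹) = k * F.u1 * k⁻¹ * (k * x * k⁻¹) ↔ x * F.u1 = F.u1 * x := by
    rw [← cj_mul, ← cj_mul]
    exact ⟨cj_inj', fun r => by rw [r]⟩
  rw [← e]
  rcases h.sb2_u hk with r | r <;> rw [r]
  refine ⟨fun c => (Commute.mul_right c cz).eq, fun c => ?_⟩
  have := Commute.mul_right (show Commute _ (F.u1 * F.z) from c) cz
  rwa [mul_assoc F.u1, F.zz, mul_one] at this

theorem TS.sb2_12 (h : F.TS a b p um η π) {k : G} (hk : k ∈ 𝐍(F.SS a b π)) :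
    k * F.t * k⁻¹ ≠ ev (F.LS a b π) 12 := fun r => by
  obtain ⟨e, he⟩ := F.exe h.d1
  obtain ⟨m, hm⟩ := h.exm
  have ok := h.okS he hm
  obtain ⟨-, eu, -, -⟩ := F.sb2_ev a b π
  have dS : F.dl ∈ F.SS a b π := subset_closure (by simp)
  obtain ⟨c, hc, ec⟩ := h.memS.1 ((mem_normalizer_iff.1 hk _).1 dS)
  have c1 : cm (PS e m) c 12 = 0 := h.injS (sb2_len e m ▸ cm_lt _ _ _) (by norm_num) (by
    rw [ok.cm, ev_zero, ← ec, ← r, sb2_cm]
    exact comm_cj k F.dlt)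
  have c2 := ok.cm c 128
  rw [sb2_6 e m c hc c1, ev_zero, eq_comm, sb2_cm, ← ec, eu, h.sb2_c hk (comm_of_cj F.dlz)] at c2
  have d3 := (F.hdl.resolve_left h.d1).2.2.1
  rw [cj_of_comm c2, F.u2e, left_eq_mul] at d3
  exact F.z1 d3

theorem TS.syl (h : F.TS a b p um η π) : IsSylowIn 2 (F.SS a b π) ⊤ := by
  obtain ⟨e, he⟩ := F.exe h.d1
  obtain ⟨m, hm⟩ := h.exm
  have ok := h.okS he hm
  obtain ⟨et, eu, -, -⟩ := F.sb2_ev a b π
  have hP : IsPGroup 2 (F.SS a b π) := F.SS_eq a b π ▸ ok.isP (h.kerS he hm)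
  have TS : F.TD ≤ F.SS a b π := (closure_le _).2 (by
    have k : F.u2 ∈ F.SS a b π := F.u2e ▸ mul_mem (subset_closure (by simp)) (subset_closure (by simp))
    simp only [Set.insert_subset_iff, Set.singleton_subset_iff, SetLike.mem_coe]
    exact ⟨subset_closure (by simp), subset_closure (by simp), subset_closure (by simp), subset_closure (by simp), k,
      subset_closure (by simp)⟩)
  have eq : F.SS a b π ⊓ centralizer {F.t} = F.TD :=
    F.sylTD.max _ (le_inf TS F.sylTD.le) inf_le_right (hP.to_le inf_le_left)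
  refine H25.A7.syl_of_norm (t := F.t) hP le_top (by rw [eq, top_inf_eq]; exact F.sylTD) fun k _ hk => ?_
  obtain ⟨c, hc, ec⟩ := h.memS.1 ((mem_normalizer_iff.1 hk _).1 (et ▸ F.sb2_mem a b π 4))
  have o : F.Om (k * F.t * k⁻¹) := ⟨k, rfl⟩
  have c1 : cm (PS e m) c 128 = 0 := h.injS (sb2_len e m ▸ cm_lt _ _ _) (by norm_num) (by
    rw [ok.cm, ev_zero, ← ec, eu, sb2_cm, h.sb2_c hk F.zt.symm]
    exact F.tu1)
  rcases sb2_4 e m c hc c1 with c4 | c4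
  · have mU : k * F.t * k⁻¹ ∈ F.U0 a b := by
      rw [ec, show c = 4 * (c / 4) by omega, evS4]
      exact F.evU a b _
    obtain ⟨d, hd, ed, d1, d2, d3⟩ := h.omU mU o
    rw [← F.evS4 a b π] at ed
    rcases sb2_5 e m d hd d1 d2 d3 with r | r
    · exact ⟨_, F.sb2_mem a b π (lk (wS e m) (4 * d)), by rw [ed, ← et, ← ok.cj, r]⟩
    · refine absurd ?_ (h.sb2_12 (mul_mem (inv_mem (le_normalizer (F.sb2_mem a b π (lk (wS e m) (4 * d))))) hk))
      have r' := ok.cj (lk (wS e m) (4 * d)) 12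
      rw [r, ← ed] at r'
      calc _ = (ev (F.LS a b π) (lk (wS e m) (4 * d)))⁻¹ * (k * F.t * k⁻¹) *
            ev (F.LS a b π) (lk (wS e m) (4 * d)) := by group
        _ = _ := by rw [r']; group
  · exact absurd (ec ▸ o) (h.nzeta hc c4)

end Fr

end H25.A6
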